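import Cfsg.Agent.Asch.Basic

/-! The list of cases of the subgroup structure theorem for the isometry group of an arbitrary non-degenerate
quadratic form. -/

set_option autoImplicit false

namespace Cfsg.Agent.Asch

open scoped MatrixGroups Matrix Kronecker
open Cfsg Cfsg.Geo

variable {ι : Type} [Fintype ι] [DecidableEq ι] {F : Type*} [Field F]

/-- reducible cases -/
def OrthRed [Fintype F] (Q : (ι → F) → F) (H : Subgroup (GL ι F)) : Prop :=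
  (∃ W : Submodule F (ι → F), W ≠ ⊥ ∧ IsTotallySingularQuad Q W ∧ H ≤ subspaceStabilizer W) ∨
  (∃ W : Submodule F (ι → F), W ≠ ⊥ ∧ IsNondegenerateOn (QuadraticMap.polar Q) W ∧
    2 * Module.finrank F W < Fintype.card ι ∧ H ≤ subspaceStabilizer W) ∨
  (∃ (m : ℕ) (D : Fin 2 → Submodule F (ι → F)), IsNondegenerateMDecomposition (QuadraticMap.polar Q) m D ∧
    ∀ i, H ≤ subspaceStabilizer (D i)) ∨
  (¬ Odd (Fintype.card F) ∧ ∃ v : ι → F, Q v ≠ 0 ∧ H ≤ subspaceStabilizer (Submodule.span F {v}))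

/-- irreducible cases -/
def OrthIrr [Fintype F] (Q : (ι → F) → F) (H : Subgroup (GL ι F)) : Prop :=
  (∃ (t k : ℕ) (D : Fin t → Submodule F (ι → F)), IsOrthogonalMDecomposition Q k D ∧
    (k = 1 → (Fintype.card F).Prime) ∧ H ≤ decompositionStabilizer D) ∨
  (∃ (m : ℕ) (D : Fin 2 → Submodule F (ι → F)), IsMDecomposition m D ∧ (∀ i, IsTotallySingularQuad Q (D i)) ∧
    H ≤ decompositionStabilizer D) ∨
  (∃ (r : ℕ) (K : Subalgebra F (Matrix ι ι F)), r.Prime ∧ r ≠ Fintype.card ι ∧ IsFieldSubalgebra r K ∧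
    IsSelfAdjointFor (QuadraticMap.polar Q) K ∧ H ≤ subalgebraNormalizer K) ∨
  (∃ K : Subalgebra F (Matrix ι ι F), IsFieldSubalgebra 2 K ∧ IsAdjointClosedFor (QuadraticMap.polar Q) K ∧
    ¬ IsSelfAdjointFor (QuadraticMap.polar Q) K ∧ (∀ k ∈ K, ∃ c : F, ∀ v : ι → F, Q (k *ᵥ v) = c * Q v) ∧
    H ≤ subalgebraNormalizer K) ∨
  (∃ (a b : ℕ) (e : ι ≃ Fin a × Fin b) (P : GL ι F) (f₁ : (Fin a → F) → (Fin a → F) → F)
    (f₂ : (Fin b → F) → (Fin b → F) → F), 2 ≤ a ∧ a ≤ b ∧ IsSymplecticForm f₁ ∧ IsSymplecticForm f₂ ∧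
    IsTensorFormStructure id (QuadraticMap.polar Q) f₁ f₂ e P ∧
    (∀ (x₁ : Fin a → F) (x₂ : Fin b → F),
      Q ((P : Matrix ι ι F) *ᵥ ((fun c : Fin a × Fin b => x₁ c.1 * x₂ c.2) ∘ e)) = 0) ∧
    H ≤ tensorProductSubgroup a b e P) ∨
  (∃ (a b : ℕ) (e : ι ≃ Fin a × Fin b) (P : GL ι F) (f₁ : (Fin a → F) → (Fin a → F) → F)
    (f₂ : (Fin b → F) → (Fin b → F) → F), Odd (Fintype.card F) ∧ 3 ≤ a ∧ a ≤ b ∧ (a = b → Even a) ∧
    IsSymmetricForm f₁ ∧ IsSymmetricForm f₂ ∧ IsTensorFormStructure id (QuadraticMap.polar Q) f₁ f₂ e P ∧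
    H ≤ tensorProductSubgroup a b e P) ∨
  (∃ (F₀ : Subfield F) (r : ℕ) (P : GL ι F) (ζ : F), r.Prime ∧ Fintype.card F = Nat.card F₀ ^ r ∧ ζ ≠ 0 ∧
    IsQuadFormRationalStructure (fun v => ζ * Q v) F₀ P ∧ H ≤ subfieldSubgroup F₀ P) ∨
  (∃ (R : Subgroup (GL ι F)) (k : ℕ), IsSymplecticTypeGroup 2 R ∧ ActsAbsolutelyIrreducibly (matrixSet R) ∧
    R ≤ isometryGroup F Q ∧ (Fintype.card F).Prime ∧ Odd (Fintype.card F) ∧ Fintype.card ι = 2 ^ k ∧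
    Nat.card R = 2 ^ (1 + 2 * k) ∧ Nat.card (Subgroup.center R) = 2 ∧ IsPlusTypeOn Q ⊤ ∧
    H ≤ subgroupNormalizer R) ∨
  (∃ (k t : ℕ) (e : ι ≃ (Fin t → Fin k)) (P : GL ι F) (f₁ : (Fin k → F) → (Fin k → F) → F), 2 ≤ t ∧
    IsSymplecticForm f₁ ∧ IsTensorPowerFormStructure id (QuadraticMap.polar Q) f₁ e P ∧
    (∀ x : Fin t → Fin k → F, Q ((P : Matrix ι ι F) *ᵥ ((fun c : Fin t → Fin k => ∏ i, x i (c i)) ∘ e)) = 0) ∧
    H ≤ tensorWreathSubgroup k t e P) ∨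
  (∃ (k t : ℕ) (e : ι ≃ (Fin t → Fin k)) (P : GL ι F) (f₁ : (Fin k → F) → (Fin k → F) → F),
    Odd (Fintype.card F) ∧ 3 ≤ k ∧ 2 ≤ t ∧ ¬ (Fintype.card F = 3 ∧ k = 3) ∧ IsSymmetricForm f₁ ∧
    IsTensorPowerFormStructure id (QuadraticMap.polar Q) f₁ e P ∧ H ≤ tensorWreathSubgroup k t e P) ∨
  InOrthogonalResidualClass H

end Cfsg.Agent.Asch
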