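import Cfsg.Agent.Asch.Sp
import Cfsg.Agent.Asch.OrthDefs

/-! The subgroup structure theorem for orthogonal groups. -/

set_option autoImplicit false
set_option linter.unusedSimpArgs false
set_option linter.unusedSectionVars false

namespace Cfsg.Agent.Asch

open scoped MatrixGroups Matrix Kronecker
open Cfsg Cfsg.Geo

variable {ι : Type} [Fintype ι] [DecidableEq ι] {F : Type*} [Field F]

lemma polar_eq_gf {Q : (ι → F) → F} (hQ : IsNondegenerateQuadraticForm Q) :
    QuadraticMap.polar Q = gf (RingEquiv.refl F) (gramMatrix (QuadraticMap.polar Q)) :=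
  (sesq_of_bilinear hQ.polar_bilinear).eq_gf

lemma herm_polar {Q : (ι → F) → F} (hQ : IsNondegenerateQuadraticForm Q) :
    Herm (RingEquiv.refl F) 1 (gramMatrix (QuadraticMap.polar Q)) :=
  herm_of_symm ((sesq_of_bilinear hQ.polar_bilinear).isUnit_gram hQ.nondegenerate)
    (Matrix.ext fun _ _ => QuadraticMap.polar_comm _ _ _)

lemma fixesQuad_iff {Q : (ι → F) → F} {H : Subgroup (GL ι F)} :
    FixesQuadForm (matrixSet H) Q ↔ H ≤ isometryGroup F Q :=
  ⟨fun h g hg u _ => h _ (mem_matrixSet hg) u, by rintro h _ ⟨g, hg, rfl⟩ v; exact h hg v v⟩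

lemma eq_zero_of_polar (h2 : (2 : F) ≠ 0) {Q : (ι → F) → F} (hQ : IsNondegenerateQuadraticForm Q) {v : ι → F}
    (h : QuadraticMap.polar Q v v = 0) : Q v = 0 :=
  (mul_eq_zero.1 ((polar_self_eq hQ.smul v).symm.trans h)).resolve_left h2

lemma orthRed_of_not_irred [Fintype F] {Q : (ι → F) → F} (hQ : IsNondegenerateQuadraticForm Q) {H : Subgroup (GL ι F)}
    (hH : H ≤ isometryGroup F Q) (hI : ¬ Irred H) : OrthRed Q H := by
  have hq := fixesQuad_iff.2 hH
  have hf := fixesGram_of_fixesForm (sesq_of_bilinear hQ.polar_bilinear) (fixesForm_polar hq)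
  have := (herm_polar hQ).reducible (fun x => ⟨Q x, by
    rw [← polar_eq_gf hQ, polar_self_eq hQ.smul, RingEquiv.refl_apply]; ring⟩) hf.le_sim hI
  rw [← polar_eq_gf hQ] at this
  rcases this with ⟨W, h1, h2, h3⟩ | h | ⟨m, D, h1, -, h2⟩
  · let U : Submodule F (ι → F) :=
      { carrier := {w | w ∈ W ∧ Q w = 0}
        add_mem' := fun {a b} ha hb => ⟨W.add_mem ha.1 hb.1, by
          rw [quad_add (Q := Q), ha.2, hb.2, h2 a ha.1 b hb.1]; ring⟩
        zero_mem' := ⟨W.zero_mem, quad_zero hQ.smul⟩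
        smul_mem' := fun c a ha => ⟨W.smul_mem c ha.1, by rw [hQ.smul, ha.2, mul_zero]⟩ }
    by_cases hU : U = ⊥
    swap
    · exact Or.inl ⟨U, hU, fun w hw => hw.2, le_subspaceStabilizer fun g hg v hv =>
        ⟨(mem_subspaceStabilizer.1 (h3 hg) v).1 hv.1, (hq _ (mem_matrixSet hg) v).trans hv.2⟩⟩
    obtain ⟨v, hv, hv0⟩ := Submodule.exists_mem_ne_zero_of_ne_bot h1
    have key : ∀ w ∈ W, Q w = 0 → w = 0 := fun w hw hw' => (Submodule.mem_bot F).1 (hU ▸ (⟨hw, hw'⟩ : w ∈ U))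
    have hodd : ¬ Odd (Fintype.card F) := fun h =>
      hv0 (key v hv (eq_zero_of_polar (odd_card_iff.1 h) hQ (h2 v hv v hv)))
    have hd : Module.finrank F W ≤ 1 := by
      by_contra! hd
      obtain ⟨w, hw, hw0, hw'⟩ := exists_ne_zero_of_additive (two_eq_zero_of_not_odd hodd) W hd Q
        (fun a ha b hb => by rw [quad_add (Q := Q), h2 a ha b hb, add_zero]) hQ.smul
      exact hw0 (key w hw hw')
    have : Submodule.span F {v} = W := Submodule.eq_of_le_of_finrank_le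
      ((Submodule.span_singleton_le_iff_mem _ _).2 hv) (by rw [finrank_span_singleton hv0]; exact hd)
    exact Or.inr (Or.inr (Or.inr ⟨hodd, v, fun h => hv0 (key v hv h), this ▸ h3⟩))
  · exact Or.inr (Or.inl h)
  · exact Or.inr (Or.inr (Or.inl ⟨m, D, h1, h2⟩))

lemma areIsometricFor_of_map {Q : (ι → F) → F} {g : GL ι F} (hg : ∀ v, Q ((g : Matrix ι ι F) *ᵥ v) = Q v)
    {W W' : Submodule F (ι → F)} (h : W.map (Matrix.toLin' (g : Matrix ι ι F)) = W') : AreIsometricFor Q W W' := by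
  subst h
  have hinj : Function.Injective (Matrix.toLin' (g : Matrix ι ι F)) := fun u v h => by
    have := congrArg (((g⁻¹ : GL ι F) : Matrix ι ι F) *ᵥ ·) h
    simpa only [Matrix.toLin'_apply, inv_mulVec_mulVec] using this
  exact ⟨Submodule.equivMapOfInjective _ hinj W, fun w => hg w⟩

lemma bot_ne_top_of_not_prime [Fintype F] (h : ¬ (Fintype.card F).Prime) : (⊥ : Subfield F) ≠ ⊤ := fun h0 => by
  obtain ⟨p, hp⟩ := CharP.exists F
  haveI : Fact p.Prime := ⟨CharP.char_is_prime F p⟩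
  have := Subfield.card_bot F p
  rw [h0, Nat.card_congr Subfield.topEquiv.toEquiv, Nat.card_eq_fintype_card] at this
  exact h (this ▸ Fact.out)

/-- a transitively permuted orthogonal frame is defined over every subfield -/
lemma formC5_of_frame [Fintype F] (hp : ¬ (Fintype.card F).Prime) {ε : F} {G : Matrix ι ι F}
    {H : Subgroup (GL ι F)} (hf : FixesGram (RingEquiv.refl F) H G) {t : ℕ} {D : Fin t → Submodule F (ι → F)}
    (hD : IsNondegenerateMDecomposition (gf (RingEquiv.refl F) G) 1 D) (hle : H ≤ decompositionStabilizer D)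
    (htr : ∀ i j, ∃ h ∈ H, (D i).map (Matrix.toLin' (h : Matrix ι ι F)) = D j) : FormC5 (RingEquiv.refl F) G H := by
  obtain ⟨F₁, r, -, hr, hc⟩ := exists_prime_index_subfield ⊥ (bot_ne_top_of_not_prime hp)
  let i0 : Fin t := ⟨0, by have := hD.decomp.two_le; omega⟩
  obtain ⟨w, hw, hw0⟩ := Submodule.exists_mem_ne_zero_of_ne_bot
    (Submodule.one_le_finrank_iff.1 (hD.decomp.finrank_eq i0).ge)
  choose h hh hh' using htr i0
  let v : Fin t → ι → F := fun j => (h j : Matrix ι ι F) *ᵥ w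
  have hv : ∀ j, v j ∈ D j := fun j => hh' j ▸ ⟨w, hw, rfl⟩
  have hv0 : ∀ j, v j ≠ 0 := fun j h' => hw0 (by rw [← inv_mulVec_mulVec (h j) w]; exact (congrArg _ h').trans (by simp))
  have hsp : ∀ j, Submodule.span F {v j} = D j := fun j => Submodule.eq_of_le_of_finrank_le
    ((Submodule.span_singleton_le_iff_mem _ _).2 (hv j)) (by rw [finrank_span_singleton (hv0 j), hD.decomp.finrank_eq])
  have hc1 : ∀ j, gf (RingEquiv.refl F) G (v j) (v j) = gf (RingEquiv.refl F) G w w := fun j => hf.gf_eq (hh j) w w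
  have hc0 : gf (RingEquiv.refl F) G w w ≠ 0 := by
    obtain ⟨x, hx, hx'⟩ := (hD.nondegenerate i0 _ (hv i0) (hv0 i0)).1
    rw [← hsp] at hx
    obtain ⟨a, rfl⟩ := Submodule.mem_span_singleton.1 hx
    rw [(sesq_gf _ G).smul_left, hc1] at hx'
    exact right_ne_zero_of_mul hx'
  have horth : ∀ i j, i ≠ j → gf (RingEquiv.refl F) G (v i) (v j) = 0 := fun i j hij =>
    hD.orthogonal i j hij _ (hv i) _ (hv j)
  have hli := linearIndependent_of_orth (fun i => (hc1 i).symm ▸ hc0) horth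
  have hcard : Fintype.card ι = Fintype.card (Fin t) := by
    rw [← finrank_span_eq_card hli, Submodule.span_range_eq_iSup, iSup_congr hsp,
      hD.decomp.iSup_eq_top, finrank_top, Module.finrank_fintype_fun_eq_card]
  let e : ι ≃ Fin t := Fintype.equivOfCardEq hcard
  obtain ⟨P, hP⟩ := exists_frame_of_linearIndependent (Equiv.refl ι) (hli.comp e e.injective)
  refine ⟨F₁, r, P, (gf (RingEquiv.refl F) G w w)⁻¹, hr, hc, inv_ne_zero hc0, fun a b => ?_, fun g hg => ?_⟩
  · rw [Matrix.smul_apply, pbG_apply, hP, hP, smul_eq_mul]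
    by_cases hab : a = b
    · rw [hab, Function.comp_apply, hc1, inv_mul_cancel₀ hc0]; exact one_mem _
    · rw [Function.comp_apply, Function.comp_apply, horth _ _ (e.injective.ne hab), mul_zero]; exact zero_mem _
  · refine mem_subfieldSubgroup_of_over one_ne_zero fun a b => ?_
    obtain ⟨s, hs⟩ := hle hg
    have h1 : (g : Matrix ι ι F) *ᵥ v (e b) ∈ D (s (e b)) := hs (e b) ▸ ⟨_, hv _, rfl⟩
    rw [← hsp] at h1
    obtain ⟨c, hc⟩ := Submodule.mem_span_singleton.1 h1
    have h2 := hf.gf_eq hg (v (e b)) (v (e b))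
    rw [← hc, gf_self_smul, hc1, hc1] at h2
    have h3 : c ∈ F₁ := by
      rcases sq_eq_one_iff.1 (mul_right_cancel₀ hc0 (h2.trans (one_mul _).symm)) with rfl | rfl
      exacts [one_mem _, neg_mem (one_mem _)]
    have h4 : cj P⁻¹ (g : Matrix ι ι F) *ᵥ Pi.single b 1 = c • Pi.single (e.symm (s (e b))) 1 := by
      apply trv_injective (Equiv.refl ι) P
      rw [← tr_mulVec, tr_refl, cj_cj_inv, trv_smul, hP, hP, Function.comp_apply, Function.comp_apply,
        Equiv.apply_symm_apply, hc]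
    have h5 := congrFun h4 a
    rw [Matrix.mulVec_single_one, Matrix.col_apply] at h5
    rw [one_smul, h5, Pi.smul_apply, Pi.single_apply]
    split_ifs
    · simpa using h3
    · simp

lemma exists_equiv_fixed [Finite F] (F₁ : Subfield F) : ∃ τ : F ≃+* F, ∀ x, τ x = x ↔ x ∈ F₁ := by
  haveI := Fintype.ofFinite F₁
  refine ⟨(FiniteField.frobeniusAlgEquivOfAlgebraic F₁ F).toRingEquiv, fun x => ?_⟩
  rw [mem_subfield_iff, Nat.card_eq_fintype_card]
  rfl

lemma map_gf (τ : F ≃+* F) (M : Matrix ι ι F) (x y : ι → F) :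
    τ (gf (RingEquiv.refl F) M x y) = gf (RingEquiv.refl F) (M.map τ) (τ ∘ x) (τ ∘ y) := by
  simp [gf, dotProduct, Matrix.mulVec]

lemma quadRational_of_over [Finite F] {Q : (ι → F) → F} (hQ : IsNondegenerateQuadraticForm Q) (hn : 2 ≤ Fintype.card ι)
    {H : Subgroup (GL ι F)} (hH : Irred H) (hq : FixesQuadForm (matrixSet H) Q) {F₁ : Subfield F} {P : GL ι F} {ζ : F}
    (h0 : ζ ≠ 0) (h1 : Over F₁ (ζ • pbG (RingEquiv.refl F) (Equiv.refl ι) P (gramMatrix (QuadraticMap.polar Q))))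
    (hle : H ≤ subfieldSubgroup F₁ P) : IsQuadFormRationalStructure (fun v => ζ * Q v) F₁ P := by
  haveI : Nonempty ι := Fintype.card_pos_iff.1 (by omega)
  obtain ⟨τ, hτ⟩ := exists_equiv_fixed F₁
  have hτ' : ∀ x ∈ F₁, τ.symm x = x := fun x hx => by rw [RingEquiv.symm_apply_eq, (hτ x).2 hx]
  have hf := fixesGram_of_fixesForm (sesq_of_bilinear hQ.polar_bilinear) (fixesForm_polar hq)
  set Γ := pbG (RingEquiv.refl F) (Equiv.refl ι) P (gramMatrix (QuadraticMap.polar Q)) with hΓ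
  have hpol : ∀ x y, QuadraticMap.polar Q ((P : Matrix ι ι F) *ᵥ x) ((P : Matrix ι ι F) *ᵥ y) =
      gf (RingEquiv.refl F) Γ x y := fun x y => by rw [polar_eq_gf hQ, gf_mulVec]; rfl
  let Q' : (ι → F) → F := fun v =>
    ζ⁻¹ * τ (ζ * Q ((P : Matrix ι ι F) *ᵥ (τ.symm ∘ (((P⁻¹ : GL ι F) : Matrix ι ι F) *ᵥ v))))
  have hQ' : ∀ x, Q' ((P : Matrix ι ι F) *ᵥ x) = ζ⁻¹ * τ (ζ * Q ((P : Matrix ι ι F) *ᵥ (τ.symm ∘ x))) := fun x => by
    simp only [Q', inv_mulVec_mulVec]
  have hsm : ∀ (c : F) (x : ι → F), τ.symm ∘ (c • x) = τ.symm c • (τ.symm ∘ x) := fun c x => by ext; simp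
  have key : Q' = Q := by
    refine hH.quad_unique hn (fun c v => ?_) hQ.smul ?_ ?_ hq
    · simp only [Q', Matrix.mulVec_smul, hsm, hQ.smul, map_mul, map_pow, RingEquiv.apply_symm_apply]
      ring
    · ext u v
      rw [← mulVec_inv_mulVec P u, ← mulVec_inv_mulVec P v]
      generalize ((P⁻¹ : GL ι F) : Matrix ι ι F) *ᵥ u = x
      generalize ((P⁻¹ : GL ι F) : Matrix ι ι F) *ᵥ v = y
      have hadd : τ.symm ∘ (x + y) = τ.symm ∘ x + τ.symm ∘ y := by ext; simp
      have hm : (ζ • Γ).map τ = ζ • Γ := by ext i j; exact (hτ _).2 (h1 i j)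
      rw [hpol, QuadraticMap.polar, ← Matrix.mulVec_add, hQ', hQ', hQ', hadd, Matrix.mulVec_add, ← mul_sub, ← mul_sub,
        ← map_sub, ← map_sub, ← mul_sub, ← mul_sub, ← QuadraticMap.polar, hpol, ← gf_smul, map_gf, hm, gf_smul,
        ← mul_assoc, inv_mul_cancel₀ h0, one_mul]
      congr 1 <;> ext <;> simp
    · rintro _ ⟨g, hg, rfl⟩ v
      obtain ⟨c, y, hc, hy⟩ := (mem_subfieldSubgroup_iff _ _ _).1 (hle hg)
      have hy' : Over F₁ ((y : Matrix ι ι F₁).map F₁.subtype) := fun i j => ((y : Matrix ι ι F₁) i j).2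
      generalize (y : Matrix ι ι F₁).map F₁.subtype = z at hy hy'
      have h2 : ∀ x, (g : Matrix ι ι F) *ᵥ ((P : Matrix ι ι F) *ᵥ x) = (P : Matrix ι ι F) *ᵥ (c • (z *ᵥ x)) := fun x => by
        rw [← Matrix.smul_mulVec, ← hy, ← cj_mulVec P, cj_cj_inv]
      have h3 : (c ^ 2)⁻¹ ∈ F₁ := by
        refine h1.mem_of_smul (isUnit_smul_of_ne_zero h0 ((herm_polar hQ).pbG _ P).unit).ne_zero ?_
        have : (c ^ 2)⁻¹ • ζ • Γ = zᵀ * (ζ • Γ) * z := gf_ext (σ := RingEquiv.refl F) fun a b => by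
          have h4 := fixesForm_polar hq _ (mem_matrixSet hg) ((P : Matrix ι ι F) *ᵥ a) ((P : Matrix ι ι F) *ᵥ b)
          rw [h2, h2, hpol, hpol, (sesq_gf _ Γ).smul_left, (sesq_gf _ Γ).smul_right] at h4
          have h5 := gf_mulVec (RingEquiv.refl F) (ζ • Γ) z z a b
          rw [map_refl] at h5
          rw [← h5, gf_smul, gf_smul, gf_smul, ← h4, RingEquiv.refl_apply]
          field_simp
        rw [this]
        exact (hy'.transpose.mul h1).mul hy'
      have h4 : τ.symm c ^ 2 = c ^ 2 := by rw [← map_pow, hτ' _ (by simpa using inv_mem h3)]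
      have h5 : z.map τ.symm = z := by ext i j; exact hτ' _ (hy' i j)
      rw [← mulVec_inv_mulVec P v]
      generalize ((P⁻¹ : GL ι F) : Matrix ι ι F) *ᵥ v = x
      change Q' _ = _
      rw [h2, hQ', hQ', hsm, comp_mulVec, h5, ← hq _ (mem_matrixSet hg) ((P : Matrix ι ι F) *ᵥ (τ.symm ∘ x)), h2,
        Matrix.mulVec_smul, Matrix.mulVec_smul, hQ.smul, hQ.smul, h4]
  intro u hu
  have h2 : τ.symm ∘ u = u := funext fun i => hτ' _ (hu i)
  have h3 := hQ' u
  rw [key, h2] at h3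
  rw [← hτ]
  beta_reduce
  nth_rewrite 2 [h3]
  rw [← mul_assoc, mul_inv_cancel₀ h0, one_mul]

theorem orth_irr_aux [Fintype F]
    (hsm : Fintype.card F = 3 → ∀ G : Matrix (Fin 3) (Fin 3) F, Herm (RingEquiv.refl F) 1 G →
      ∀ L ≤ similarityGroup (gf (RingEquiv.refl F) G), ⁅L, L⁆ = L → L = ⊥)
    {Q : (ι → F) → F} (hQ : IsNondegenerateQuadraticForm Q) (hn : 3 ≤ Fintype.card ι) {H : Subgroup (GL ι F)}
    (hq' : H ≤ isometryGroup F Q) (hH : Irred H) {C : Prop}
    (h5 : FormC5 (RingEquiv.refl F) (gramMatrix (QuadraticMap.polar Q)) H → C) : OrthIrr Q H ∨ C := by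
  haveI : Nonempty ι := Fintype.card_pos_iff.1 (by omega)
  have hq := fixesQuad_iff.2 hq'
  have hf := fixesGram_of_fixesForm (sesq_of_bilinear hQ.polar_bilinear) (fixesForm_polar hq)
  have hG := herm_polar hQ
  have hp := polar_eq_gf hQ
  generalize gramMatrix (QuadraticMap.polar Q) = G at hf hG hp h5
  have hu : ∀ Q' : (ι → F) → F, IsNondegenerateQuadraticForm Q' → QuadraticMap.polar Q' = gf (RingEquiv.refl F) G →
      FixesQuadForm (matrixSet H) Q' → Q = Q' := fun Q' h1 h2 h3 =>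
    hH.quad_unique (by omega) hQ.smul h1.smul (hp.trans h2.symm) hq h3
  have hz : (2 : F) ≠ 0 → ∀ v, gf (RingEquiv.refl F) G v v = 0 → Q v = 0 := fun h2 v hv =>
    eq_zero_of_polar h2 hQ (hp ▸ hv)
  unfold OrthIrr
  rw [hp]
  have hcomm : CommCase (RingEquiv.refl F) G H → OrthIrr Q H ∨ C := by
    unfold OrthIrr
    rw [hp]
    rintro (⟨t, k, D, h1, h2, h3⟩ | ⟨k, D, ω, h1, h2, h3, h4, h5, h6, h7⟩ |
      ⟨-, ⟨r, K, h1, h0, h2, h3, h4⟩ | ⟨K, h1, h2, h3, h4⟩⟩ | ⟨h, -⟩)
    · by_cases hk : k = 1 → (Fintype.card F).Prime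
      · refine Or.inl (Or.inl ⟨t, k, D, ⟨hp ▸ h1, fun i j => ?_⟩, hk, h2⟩)
        obtain ⟨g, hg, hg'⟩ := h3 i j
        exact areIsometricFor_of_map (hq _ (mem_matrixSet hg)) hg'
      · push Not at hk
        obtain ⟨rfl, hk⟩ := hk
        exact Or.inr (h5 (formC5_of_frame (ε := 1) hk hf h1 h2 h3))
    · refine Or.inl (Or.inr (Or.inl ⟨k, D, h1, fun i v hv => ?_, h3⟩))
      by_cases h8 : (2 : F) = 0
      · obtain ⟨k1, k2, k3⟩ := omega_quad hG hf h4 h5
        rw [hu _ k1 k2 k3]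
        fin_cases i
        · exact (congrArg (gf _ G · v) (h6 v hv)).trans (h2 0 v hv v hv)
        · exact (congrArg (gf _ G · v) (h7 v hv)).trans ((sesq_gf _ G).zero_left v)
      · exact hz h8 v (h2 i v hv v hv)
    · exact Or.inl (Or.inr (Or.inr (Or.inl ⟨r, K, h1, h0, h2, (isSelfAdjointFor_iff hG.unit).2 h4,
        h3.le_subalgebraNormalizer⟩)))
    · refine Or.inl (Or.inr (Or.inr (Or.inr (Or.inl ⟨K, h1, h3.isAdjointClosedFor hG.unit,
        by rwa [isSelfAdjointFor_iff hG.unit], fun k hk => ?_, h2.le_subalgebraNormalizer⟩))))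
      obtain ⟨c, hc⟩ := scalar_of_sa hG.unit h1 h4 (K.mul_mem (h3 k hk) hk) (by rw [adj_mul hG.unit, hG.adj_adj])
      refine ⟨c, fun v => ?_⟩
      by_cases h8 : (2 : F) = 0
      · obtain ⟨ω, hω, h5, h6⟩ := exists_omega h8 hG h1 h2 h3 h4
        obtain ⟨k1, k2, k3⟩ := omega_quad hG hf h5 h6
        rw [hu _ k1 k2 k3]
        change gf _ G _ _ = c * gf _ G _ _
        rw [hG.gf_adj', Matrix.mulVec_mulVec, Matrix.mulVec_mulVec, mul_assoc, h1.comm ω hω k hk, ← mul_assoc, hc,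
          Matrix.smul_mul, one_mul, Matrix.smul_mulVec, (sesq_gf _ G).smul_left]
      · apply mul_left_cancel₀ h8
        rw [← polar_self_eq hQ.smul, mul_left_comm, ← polar_self_eq hQ.smul, hp, hG.gf_adj', Matrix.mulVec_mulVec, hc,
          Matrix.smul_mulVec, Matrix.one_mulVec, (sesq_gf _ G).smul_left]
    · exact absurd rfl h
  unfold OrthIrr at hcomm
  rw [hp] at hcomm
  have htens : ∀ (a b : ℕ) (e : ι ≃ Fin a × Fin b) (P : GL ι F) (ε₁ ε₂ : F) (G₁ : Matrix (Fin a) (Fin a) F)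
      (G₂ : Matrix (Fin b) (Fin b) F), a ≤ b → TData (RingEquiv.refl F) 1 G H e P ε₁ ε₂ G₁ G₂ → OrthIrr Q H ∨ C := by
    unfold OrthIrr
    rw [hp]
    intro a b e P ε₁ ε₂ G₁ G₂ hab h
    by_cases h2 : (2 : F) = 0
    · obtain ⟨k1, k2, Q', k3, k4, k5, k6⟩ := h.exists_quad h2 hH hf
      left
      iterate 4 right
      exact Or.inl ⟨a, b, e, P, _, _, h.ha, hab, k1, k2, h.isTensorFormStructure, hu _ k3 k4 k5 ▸ k6, h.le⟩
    have := h.eps
    rcases h.h₁.eps with rfl | rfl <;> rcases h.h₂.eps with rfl | rfl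
    · rcases h.ha.eq_or_lt with rfl | ha
      · exact hcomm (h.swap.commCase_of_two h2 hH hf.le_sim)
      by_cases hev : a = b → Even a
      · left
        iterate 5 right
        exact Or.inl ⟨a, b, e, P, _, _, odd_card_iff.2 h2, ha, hab, hev, isSymmetricForm_gf h.h₁.unit h.h₁.transpose_one,
          isSymmetricForm_gf h.h₂.unit h.h₂.transpose_one, h.isTensorFormStructure, h.le⟩
      push Not at hev
      obtain ⟨rfl, hev⟩ := hev
      by_cases hex : Fintype.card F = 3 ∧ a = 3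
      · obtain ⟨h3, rfl⟩ := hex
        rcases h.both_cases hH hf.le_sim Nat.prime_three (hsm h3 _ h.h₁) (hsm h3 _ h.h₂) with h' | ⟨N, R, k1, k2, -⟩
        · exact hcomm h'
        · exact absurd (k1.data.eq_two (by omega) hG.unit (k1.le.trans (sup_le k2 scalars_le_similarityGroup)))
            (by norm_num)
      have hodd : Odd (Fintype.card (Fin a)) := by simpa using hev
      obtain ⟨P₁, c₁, -, k1⟩ := h.h₁.exists_pbG_smul_one h2 hodd (Equiv.refl _)
      obtain ⟨P₂, c₂, -, k2⟩ := h.h₂.exists_pbG_smul_one h2 hodd (Equiv.refl _)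
      have h' := h.fr P₁ P₂
      rw [k1, k2] at h'
      have h'' := h'.pData (herm_of_symm isUnit_one Matrix.transpose_one) fun _ => rfl
      left
      iterate 9 right
      exact Or.inl ⟨a, 2, _, _, _, odd_card_iff.2 h2, ha, le_rfl, hex,
        isSymmetricForm_gf isUnit_one Matrix.transpose_one, h''.isTensorPowerFormStructure, h''.le⟩
    · exact absurd (by linear_combination this) h2
    · exact absurd (by linear_combination this) h2
    · left
      iterate 4 right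
      refine Or.inl ⟨a, b, e, P, _, _, h.ha, hab, isSymplecticForm_gf h.h₁.unit h.h₁.transpose_neg
        (alt_of_skew h2 h.h₁.transpose_neg), isSymplecticForm_gf h.h₂.unit h.h₂.transpose_neg
        (alt_of_skew h2 h.h₂.transpose_neg), h.isTensorFormStructure, fun x y => hz h2 (trv e P (kvec x y)) ?_, h.le⟩
      rw [gf_trv, h.gram, gf_kronecker_kvec, alt_of_skew h2 h.h₁.transpose_neg, zero_mul]
  unfold OrthIrr at htens
  rw [hp] at htens
  rcases hG.structure (fun h => rfl) hH hf (by omega) with h | ⟨a, b, e, P, ε₁, ε₂, G₁, G₂, h⟩ |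
    ⟨r, N, hN, hr⟩ | ⟨m, t, e, P, ε₀, G₀, L, h, hL, hA, hs⟩ | h | ⟨P, hP, hA⟩
  · exact hcomm h
  · rcases le_total a b with hab | hab
    · exact htens _ _ _ _ _ _ _ _ hab h
    · exact htens _ _ _ _ _ _ _ _ hab h.swap
  · have hf' := hf.mono hN.le
    obtain rfl := hr.eq_two (by omega) hG.unit hf'.le_sim
    have h2 := hr.two_ne_zero (by omega)
    rcases hr.prime_or_formC5 (by omega) hG hf' hN.norm with hp' | h
    · obtain ⟨k, hk⟩ := hr.exists_card_eq_pow
      obtain ⟨U, hU, hU'⟩ := hr.exists_isotropic hn hG hf'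
      left
      iterate 7 right
      exact Or.inl ⟨N, k, hr.isSymplecticTypeGroup hn (hr.exp_four (by omega) hG.unit hf'), hr.abs.acts,
        hN.le.trans hq', hp', odd_card_iff.2 h2, hk, hr.card_eq_two (by omega) hG.unit hf' hk,
        hr.card_center_two (by omega) hG.unit hf', ⟨U, le_top, fun v hv => hz h2 v (hU v hv v hv), by
          rw [hU', finrank_top, Module.finrank_fintype_fun_eq_card]⟩, hN.norm.le_normalizer⟩
    · exact Or.inr (h5 h)
  · left
    by_cases h2 : (2 : F) = 0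
    · have a0 := hA.irred.alt_of_symm h2 (by simpa using h.hm) (h.herm.symm_of_two h2) hs
      obtain ⟨Q', k1, k2, k3, k4⟩ := h.exists_quad h2 hG.unit a0 hf
      iterate 8 right
      exact Or.inl ⟨m, t, e, P, _, h.ht, isSymplecticForm_gf h.herm.unit (h.herm.skew_of_two h2) a0,
        h.isTensorPowerFormStructure, hu _ k1 k2 k3 ▸ k4, h.le⟩
    rcases h.herm.eps with rfl | rfl
    · rcases h.hm.eq_or_lt with rfl | hm
      · exact (not_perfect_GO2 h2 h.herm hL hA hs).elim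
      iterate 9 right
      refine Or.inl ⟨m, t, e, P, _, odd_card_iff.2 h2, hm, h.ht, ?_, isSymmetricForm_gf h.herm.unit h.herm.transpose_one,
        h.isTensorPowerFormStructure, h.le⟩
      rintro ⟨h3, rfl⟩
      exact not_absIrr_bot (by simp) (hsm h3 _ h.herm L hs hL ▸ hA)
    · iterate 8 right
      refine Or.inl ⟨m, t, e, P, _, h.ht, isSymplecticForm_gf h.herm.unit h.herm.transpose_neg
        (alt_of_skew h2 h.herm.transpose_neg), h.isTensorPowerFormStructure,
        fun x => hz h2 (trv e P (pvec x)) ?_, h.le⟩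
      obtain ⟨c, -, hc⟩ := h.gram
      rw [gf_trv, hc, gf_smul, gf_pt_pvec, Finset.prod_eq_zero (Finset.mem_univ (⟨0, by have := h.ht; omega⟩ : Fin t))
        (alt_of_skew h2 h.herm.transpose_neg _), mul_zero]
  · exact Or.inr (h5 h)
  · left
    iterate 10 right
    exact ⟨P, hP, IsResidualCore.no_unitary hP hA hG.unit (hf.mono hP.le)⟩

end Cfsg.Agent.Asch
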