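import Cfsg.Agent.Asch.SU
import Cfsg.Agent.Asch.Orth
import Cfsg.Agent.H9.SmallPerfect

/-! The subgroup structure theorems for the classical groups, without side hypotheses. -/

set_option autoImplicit false
set_option linter.unusedSimpArgs false
set_option linter.unusedSectionVars false

namespace Cfsg.Agent.Asch

open scoped MatrixGroups Matrix Kronecker
open Cfsg Cfsg.Geo

variable {ι : Type} [Fintype ι] [DecidableEq ι] {F : Type*} [Field F] [Fintype F]

theorem sp_structure (m : ℕ) (hm : 2 ≤ m) (H : Subgroup (GL (Fin m ⊕ Fin m) F)) (hH : H ≤ spGL m F) :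
    (∃ M, InSymplecticClass m F M ∧ H ≤ M) ∨ InSymplecticResidualClass H :=
  sp_structure_aux (fun h => H9.perfect_GL2 h.le) m hm H hH

/-- refined form for irreducible groups -/
theorem sp_irr (m : ℕ) (hm : 2 ≤ m) {H : Subgroup (GL (Fin m ⊕ Fin m) F)} (hH : H ≤ spGL m F) (hI : Irred H) :
    SpIrr (sympForm m F) H :=
  sp_irr_aux (fun h => H9.perfect_GL2 h.le) (herm_J m) (H7.isSymplecticForm_sympForm m F).alternating
    (by simp; omega) hI (fixesGram_of_le_spGL hH)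

theorem su_structure {q : ℕ} (hF : Fintype.card F = q ^ 2) (n : ℕ) (hn : 3 ≤ n) (H : Subgroup (GL (Fin n) F))
    (hH : H ≤ GU n F q) : (∃ M, InUnitaryClass n F q M ∧ H ≤ M) ∨ InUnitaryResidualClass H :=
  su_structure_aux hF (fun h _ hG L hs hL => H9.perfect_GU3 h (qInv_ne hF) hG L hs hL) n hn H hH

/-- refined form for irreducible groups (`hermForm n F q = gf (qInv hF) 1` is `hermForm_eq`) -/
theorem su_irr {q : ℕ} (hF : Fintype.card F = q ^ 2) {n : ℕ} (hn : 3 ≤ n) {H : Subgroup (GL (Fin n) F)}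
    (hH : H ≤ GU n F q) (hI : Irred H) : SUIrr (qInv hF) 1 H :=
  su_irr_aux (qInv_ne hF) (fun h _ hG L hs hL => H9.perfect_GU3 h (qInv_ne hF) hG L hs hL) (herm_one hF)
    (by simpa using hn) hI (fixesGram_of_le_GU hF hH)

/-- refined form for reducible groups -/
theorem su_red {q : ℕ} (hF : Fintype.card F = q ^ 2) {n : ℕ} {H : Subgroup (GL (Fin n) F)}
    (hH : H ≤ GU n F q) (hI : ¬ Irred H) :
    (∃ W : Submodule F (Fin n → F), W ≠ ⊥ ∧ IsTotallySingularFor (hermForm n F q) W ∧ H ≤ subspaceStabilizer W) ∨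
    (∃ W : Submodule F (Fin n → F), W ≠ ⊥ ∧ IsNondegenerateOn (hermForm n F q) W ∧ 2 * Module.finrank F W < n ∧
      H ≤ subspaceStabilizer W) ∨
    (∃ (m : ℕ) (D : Fin 2 → Submodule F (Fin n → F)), IsNondegenerateMDecomposition (hermForm n F q) m D ∧
      H ≤ decompositionStabilizer D ∧ ∀ i, H ≤ subspaceStabilizer (D i)) := by
  have := (herm_one hF).reducible ((herm_one (ι := Fin n) hF).trVal_of_ne (qInv_ne hF))
    (fixesGram_of_le_GU hF hH).le_sim hI
  rwa [← hermForm_eq hF, Fintype.card_fin] at this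

theorem orth_irr {Q : (ι → F) → F} (hQ : IsNondegenerateQuadraticForm Q) (hn : 3 ≤ Fintype.card ι)
    {H : Subgroup (GL ι F)} (hH : H ≤ isometryGroup F Q) (hI : Irred H) : OrthIrr Q H := by
  refine (or_self_iff.1 (orth_irr_aux (fun h _ hG L hs hL => H9.perfect_GO3 h hG L hs hL) hQ hn hH hI ?_))
  rintro ⟨F₁, r, P, ζ, h1, h2, h3, h4, h5⟩
  iterate 6 right
  exact Or.inl ⟨F₁, r, P, ζ, h1, h2, h3, quadRational_of_over hQ (by omega) hI (fixesQuad_iff.2 hH) h3 h4 h5, h5⟩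

theorem orth_structure {Q : (ι → F) → F} (hQ : IsNondegenerateQuadraticForm Q) (hn : 3 ≤ Fintype.card ι)
    (H : Subgroup (GL ι F)) (hH : H ≤ isometryGroup F Q) : OrthRed Q H ∨ (Irred H ∧ OrthIrr Q H) := by
  by_cases hI : Irred H
  · exact Or.inr ⟨hI, orth_irr hQ hn hH hI⟩
  · exact Or.inl (orthRed_of_not_irred hQ hH hI)

lemma over_of_quadRational {Q : (ι → F) → F} (hQ : IsNondegenerateQuadraticForm Q) {F₁ : Subfield F} {P : GL ι F}
    {ζ : F} (h : IsQuadFormRationalStructure (fun v => ζ * Q v) F₁ P) :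
    Over F₁ (ζ • pbG (RingEquiv.refl F) (Equiv.refl ι) P (gramMatrix (QuadraticMap.polar Q))) := fun i j => by
  have h1 : ∀ i k : ι, (Pi.single i 1 : ι → F) k ∈ F₁ := fun i k => by
    rw [Pi.single_apply]; split_ifs; exacts [one_mem _, zero_mem _]
  rw [Matrix.smul_apply, pbG_apply, ← polar_eq_gf hQ, smul_eq_mul, QuadraticMap.polar, mul_sub, mul_sub]
  refine sub_mem (sub_mem ?_ (h _ (h1 i))) (h _ (h1 j))
  have := h (Pi.single i 1 + Pi.single j 1) fun k => add_mem (h1 i k) (h1 j k)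
  rwa [Matrix.mulVec_add] at this

lemma quadRational_of_over_odd (h2 : (2 : F) ≠ 0) {Q : (ι → F) → F} (hQ : IsNondegenerateQuadraticForm Q)
    {F₁ : Subfield F} {P : GL ι F}
    (h : Over F₁ (pbG (RingEquiv.refl F) (Equiv.refl ι) P (gramMatrix (QuadraticMap.polar Q)))) :
    IsQuadFormRationalStructure Q F₁ P := fun u hu => by
  have h1 : Q ((P : Matrix ι ι F) *ᵥ u) = 2⁻¹ * gf (RingEquiv.refl F)
      (pbG (RingEquiv.refl F) (Equiv.refl ι) P (gramMatrix (QuadraticMap.polar Q))) u u := by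
    rw [← gf_trv, ← polar_eq_gf hQ, polar_self_eq hQ.smul, ← mul_assoc, inv_mul_cancel₀ h2, one_mul]; rfl
  rw [h1]
  refine mul_mem (inv_mem (by rw [← one_add_one_eq_two]; exact add_mem (one_mem _) (one_mem _))) ?_
  exact sum_mem fun i _ => mul_mem (hu i) (sum_mem fun j _ => mul_mem (h i j) (hu j))

theorem oodd_structure (m : ℕ) (hm : 1 ≤ m) (hodd : Odd (Fintype.card F))
    (H : Subgroup (GL (Unit ⊕ (Fin m ⊕ Fin m)) F)) (hH : H ≤ isometryGroup F (quadFormOdd m F)) :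
    (∃ M, InOrthogonalOddClass m F M ∧ H ≤ M) ∨ InOrthogonalResidualClass H := by
  have h2 := odd_card_iff.1 hodd
  have hQ := H7.isNondegenerateQuadraticForm_quadFormOdd (F := F) m h2
  have hc : Fintype.card (Unit ⊕ (Fin m ⊕ Fin m)) = 2 * m + 1 := by simp; omega
  have hprod : ∀ {a b : ℕ}, (Unit ⊕ (Fin m ⊕ Fin m)) ≃ Fin a × Fin b → ¬ Even a := fun {a b} e h => by
    have := Fintype.card_congr e
    rw [hc, Fintype.card_prod, Fintype.card_fin, Fintype.card_fin] at this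
    have := this ▸ h.mul_right b
    exact absurd this (by simp)
  unfold InOrthogonalOddClass
  rcases orth_structure hQ (by omega) H hH with (⟨W, h1, h3, h⟩ | ⟨W, h1, h3, h4, h⟩ | ⟨k, D, h1, -⟩ | ⟨h, -⟩) |
    ⟨hI, ⟨t, k, D, h1, h3, h⟩ | ⟨k, D, h1, -⟩ | ⟨r, K, h1, h3, h4, h5, h⟩ | ⟨K, h1, -⟩ |
      ⟨a, b, e, P, f₁, f₂, -, -, h1, -⟩ | ⟨a, b, e, P, f₁, f₂, -, h1, h3, h4, h5, h6, h7, h⟩ |
      ⟨F₀, r, P, ζ, h1, h3, h4, h5, h⟩ | ⟨R, k, -, -, -, -, -, h1, -⟩ | ⟨k, t, e, P, f₁, h1, h3, -⟩ |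
      ⟨k, t, e, P, f₁, -, h1, h3, h4, h5, h6, h⟩ | h⟩
  · exact Or.inl ⟨_, Or.inl ⟨W, h1, h3, rfl⟩, le_inf h hH⟩
  · refine Or.inl ⟨_, Or.inr (Or.inl ⟨W, h1, ?_, h3, rfl⟩), le_inf h hH⟩
    rintro rfl
    rw [finrank_top, Module.finrank_fintype_fun_eq_card] at h4
    omega
  · have := IsMDecomposition.two_mul_eq h1.decomp
    omega
  · exact absurd hodd h
  · rcases (Nat.succ_le_of_lt h1.decomp.decomp.pos).eq_or_lt with rfl | hk
    · exact Or.inl ⟨_, Or.inr (Or.inr (Or.inr (Or.inl ⟨t, D, h3 rfl, h1, rfl⟩))), le_inf h hH⟩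
    · exact Or.inl ⟨_, Or.inr (Or.inr (Or.inl ⟨t, k, D, hk, h1, rfl⟩)), le_inf h hH⟩
  · have := IsMDecomposition.two_mul_eq h1
    omega
  · exact Or.inl ⟨_, Or.inr (Or.inr (Or.inr (Or.inr (Or.inl ⟨r, K, h1, hc ▸ h3.symm, h4, h5, rfl⟩)))), le_inf h hH⟩
  · have := fieldSubalgebra_dvd h1
    omega
  · exact absurd (by simpa using even_card_of_symplectic h1) (hprod e)
  · refine Or.inl ⟨_, Or.inr (Or.inr (Or.inr (Or.inr (Or.inr (Or.inl
      ⟨a, b, e, P, f₁, f₂, h1, lt_of_le_of_ne h3 fun h' => hprod e (h4 h'), h5, h6, h7, rfl⟩))))), le_inf h hH⟩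
  · obtain ⟨F₁, r', P', k1, k2, k3, k4⟩ := FormC5.odd (herm_polar hQ).unit (fun F₁ => by
      have := over_of_quadRational hQ (F₁ := F₁) (P := 1) (ζ := 1) fun u hu => by
        simp only [Units.val_one, Matrix.one_mulVec, one_mul, quadFormOdd]
        exact add_mem (pow_mem (hu _) _) (sum_mem fun i _ => mul_mem (hu _) (hu _))
      simpa [pbG] using this) (by rw [hc]; simp) ⟨F₀, r, P, ζ, h1, h3, h4, over_of_quadRational hQ h5, h⟩
    exact Or.inl ⟨_, Or.inr (Or.inr (Or.inr (Or.inr (Or.inr (Or.inr (Or.inl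
      ⟨F₁, r', P', k1, k2, quadRational_of_over_odd h2 hQ k3, rfl⟩)))))), le_inf k4 hH⟩
  · rcases k with _ | k
    · omega
    · rw [pow_succ] at h1; omega
  · have h4 := Fintype.card_congr e
    have h5 : Even k := by simpa using even_card_of_symplectic h3
    rw [hc, Fintype.card_fun, Fintype.card_fin, Fintype.card_fin] at h4
    have := h4 ▸ h5.pow_of_ne_zero (by omega : t ≠ 0)
    exact absurd this (by simp)
  · exact Or.inl ⟨_, Or.inr (Or.inr (Or.inr (Or.inr (Or.inr (Or.inr (Or.inr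
      ⟨k, t, e, P, f₁, h1, h3, h4, h5, h6, rfl⟩)))))), le_inf h hH⟩
  · exact Or.inr h

end Cfsg.Agent.Asch
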