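import Cfsg.Agent.Asch.FormTensor
import Cfsg.Agent.H7.Inst

/-! Subfield structures relative to a form. -/

set_option autoImplicit false
set_option linter.unusedSimpArgs false
set_option linter.unusedSectionVars false

namespace Cfsg.Agent.Asch

open scoped MatrixGroups Matrix Kronecker
open Cfsg Cfsg.Geo

variable {ι : Type} [Fintype ι] [DecidableEq ι] {F : Type*} [Field F]

lemma mem_subfield_iff [Finite F] (F₁ : Subfield F) (x : F) : x ∈ F₁ ↔ x ^ Nat.card F₁ = x := by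
  haveI := Fintype.ofFinite F₁
  have h1 : ∀ y ∈ F₁, y ^ Nat.card F₁ = y := fun y hy => by
    rw [Nat.card_eq_fintype_card]
    exact congrArg Subtype.val (FiniteField.pow_card (⟨y, hy⟩ : F₁))
  refine ⟨h1 x, fun hx => ?_⟩
  have h2 : Nat.card {x : F // x ^ Nat.card F₁ = x} = Nat.card F₁ :=
    card_fixed_pow _ Finite.one_lt_card (by
      rw [Module.natCard_eq_pow_finrank (K := F₁) (V := F)]
      exact Nat.sub_one_dvd_pow_sub_one _ _)
  have h3 : (F₁ : Set F) = {x | x ^ Nat.card F₁ = x} :=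
    Set.eq_of_subset_of_ncard_le h1 (le_of_eq h2)
  change x ∈ (F₁ : Set F)
  rw [h3]; exact hx

lemma map_mem_subfield [Finite F] (σ : F ≃+* F) {F₁ : Subfield F} {x : F} (hx : x ∈ F₁) : σ x ∈ F₁ := by
  rw [mem_subfield_iff] at hx ⊢
  rw [← map_pow, hx]

/-- all entries lie in the subfield -/
def Over (F₁ : Subfield F) (x : Matrix ι ι F) : Prop := ∀ i j, x i j ∈ F₁

namespace Over

variable {F₁ : Subfield F} {x y : Matrix ι ι F}

lemma mul (hx : Over F₁ x) (hy : Over F₁ y) : Over F₁ (x * y) := fun i j => by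
  rw [Matrix.mul_apply]
  exact sum_mem fun k _ => mul_mem (hx i k) (hy k j)

lemma smul (hx : Over F₁ x) {c : F} (hc : c ∈ F₁) : Over F₁ (c • x) := fun i j => mul_mem hc (hx i j)

lemma transpose (hx : Over F₁ x) : Over F₁ xᵀ := fun i j => hx j i

lemma map [Finite F] (hx : Over F₁ x) (σ : F ≃+* F) : Over F₁ (x.map σ) := fun i j => map_mem_subfield σ (hx i j)

lemma det (hx : Over F₁ x) : x.det ∈ F₁ := by
  rw [Matrix.det_apply]
  exact sum_mem fun s _ => by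
    rw [Units.smul_def]
    exact zsmul_mem (prod_mem fun i _ => hx _ _) _

lemma gf_mem [Finite F] (hx : Over F₁ x) (σ : F ≃+* F) {u v : ι → F} (hu : ∀ i, u i ∈ F₁) (hv : ∀ i, v i ∈ F₁) :
    gf σ x u v ∈ F₁ :=
  sum_mem fun i _ => mul_mem (hu i) (sum_mem fun j _ => mul_mem (hx i j) (map_mem_subfield σ (hv j)))

lemma mem_of_smul (hx : Over F₁ x) (h0 : x ≠ 0) {c : F} (hc : Over F₁ (c • x)) : c ∈ F₁ := by
  obtain ⟨i, j, h⟩ : ∃ i j, x i j ≠ 0 := by
    by_contra! h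
    exact h0 (Matrix.ext h)
  have := div_mem (hc i j) (hx i j)
  rwa [Matrix.smul_apply, smul_eq_mul, mul_div_cancel_right₀ _ h] at this

end Over

lemma over_single (F₁ : Subfield F) (i j : ι) : Over F₁ (Matrix.single i j (1 : F)) := fun a b => by
  rw [Matrix.single_apply]
  split_ifs
  exacts [one_mem _, zero_mem _]

lemma exists_smul_over [Nonempty ι] {F₁ : Subfield F} (g : GL ι F) (h : ∀ y, Over F₁ y → Over F₁ (cj g y)) :
    ∃ ζ : F, ζ ≠ 0 ∧ Over F₁ (ζ • (g : Matrix ι ι F)) := by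
  obtain ⟨j, b, h0⟩ : ∃ i j, ((g⁻¹ : GL ι F) : Matrix ι ι F) i j ≠ 0 := by
    by_contra! h
    exact (g⁻¹).isUnit.ne_zero (Matrix.ext h)
  refine ⟨_, h0, fun a i => ?_⟩
  have := h _ (over_single F₁ i j) a b
  rw [cj_apply, Matrix.mul_apply, Finset.sum_eq_single j (fun k _ hk => by simp [hk]) (by simp)] at this
  simpa [mul_comm] using this

/-- class 5 relative to a form -/
def FormC5 [Fintype F] (σ : F ≃+* F) (G : Matrix ι ι F) (H : Subgroup (GL ι F)) : Prop :=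
  ∃ (F₁ : Subfield F) (r : ℕ) (P : GL ι F) (ζ : F), r.Prime ∧ Fintype.card F = Nat.card F₁ ^ r ∧ ζ ≠ 0 ∧
    Over F₁ (ζ • pbG σ (Equiv.refl ι) P G) ∧ H ≤ subfieldSubgroup F₁ P

lemma Herm.formC5 [Fintype F] [Nonempty ι] {σ : F ≃+* F} {ε : F} {G : Matrix ι ι F} (hG : Herm σ ε G)
    {N H : Subgroup (GL ι F)} (hN : AbsIrr N) (hH : GNorms H N) {F₀ : Subfield F} (h0 : F₀ ≠ ⊤)
    (hR : RealisableOver F₀ (matrixSet N))
    (hs : ∀ x ∈ N, ∃ c ∈ F₀, adj σ G (x : Matrix ι ι F) = c • ((x⁻¹ : GL ι F) : Matrix ι ι F)) : FormC5 σ G H := by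
  obtain ⟨F₁, r, B, h1, h2, h3, h4, h5⟩ := hN.exists_subfieldSubgroup hH h0 hR
  have hΓ := hG.pbG (Equiv.refl ι) B⁻¹
  have key : ∀ y, Over F₁ y → Over F₁ (adj σ (Asch.pbG σ (Equiv.refl ι) B⁻¹ G) y) := fun y hy => by
    have h6 : adj σ G (cj B⁻¹ y) ∈ spanAlg F₁ N := by
      refine spanAlg_induction (p := fun z => adj σ G z ∈ spanAlg F₁ N) ?_ ?_ ?_ ?_ (hN.mem_spanAlg_subfield F₁ B h4 hy)
      · intro x hx
        obtain ⟨c, hc, hc'⟩ := hs x hx
        rw [hc']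
        exact Subalgebra.smul_mem _ (coe_mem_spanAlg (N.inv_mem hx)) (⟨c, h3 hc⟩ : F₁)
      · rw [adj_zero]; exact zero_mem _
      · intro a b ha hb; rw [adj_add]; exact add_mem ha hb
      · intro c a ha
        change adj σ G ((c : F) • a) ∈ _
        rw [adj_smul]
        exact Subalgebra.smul_mem _ ha (⟨σ.symm c, map_mem_subfield σ.symm c.2⟩ : F₁)
    have := spanAlg_subfield_entries F₁ B h4 h6
    rwa [← tr_refl B⁻¹, adj_tr hG.unit, tr_refl, cj_cj_inv] at this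
  obtain ⟨ζ, h6, h7⟩ := exists_smul_over (F₁ := F₁) hΓ.unit.unit fun y hy => by
    have := mul_adj_map (σ := σ) hΓ.unit (adj σ (Asch.pbG σ (Equiv.refl ι) B⁻¹ G) (y.map σ))
    rw [hΓ.adj_adj, map_map_invol hG.invol] at this
    rw [cj_apply, IsUnit.unit_spec, this, mul_assoc, IsUnit.mul_val_inv, mul_one]
    exact (key _ (hy.map σ)).transpose
  exact ⟨F₁, r, B⁻¹, ζ, h1, h2, h6, h7, h5⟩

lemma Herm.formC5_of_fixes [Fintype F] [Nonempty ι] {σ : F ≃+* F} {ε : F} {G : Matrix ι ι F} (hG : Herm σ ε G)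
    {N H : Subgroup (GL ι F)} (hN : AbsIrr N) (hH : GNorms H N) {F₀ : Subfield F} (h0 : F₀ ≠ ⊤)
    (hR : RealisableOver F₀ (matrixSet N)) (hs : FixesGram σ N G) : FormC5 σ G H :=
  hG.formC5 hN hH h0 hR fun x hx => ⟨1, one_mem _, by rw [adj_of_fixes hG.unit (hs x hx), one_smul]⟩

lemma isFormRationalStructure_of_over [Finite F] {σ : F ≃+* F} {G : Matrix ι ι F} {F₁ : Subfield F} {P : GL ι F} {ζ : F}
    (h : Over F₁ (ζ • pbG σ (Equiv.refl ι) P G)) : IsFormRationalStructure (gf σ G) F₁ ζ P := fun u v hu hv => by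
  rw [gf_mulVec, ← gf_smul]
  exact h.gf_mem σ hu hv

lemma subfieldSubgroup_mul_sc (F₁ : Subfield F) (P : GL ι F) (c : Fˣ) :
    subfieldSubgroup F₁ (P * sc ι c) = subfieldSubgroup F₁ P := by
  ext g
  rw [mem_subfieldSubgroup_iff, mem_subfieldSubgroup_iff, mul_inv_rev, cj_mul,
    cj_scalar ((scalars ι F).inv_mem (sc_mem c))]

lemma pbG_mul_sc (σ : F ≃+* F) (P : GL ι F) (c : Fˣ) (G : Matrix ι ι F) :
    pbG σ (Equiv.refl ι) (P * sc ι c) G = ((c : F) * σ c) • pbG σ (Equiv.refl ι) P G := by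
  rw [pbG_refl, pbG_refl, Units.val_mul, coe_sc, Matrix.mul_smul, mul_one, Matrix.transpose_smul, map_smul_equiv,
    Matrix.smul_mul, Matrix.smul_mul, Matrix.mul_smul, smul_smul]

/-- odd-dimensional bilinear case: no scalar is needed -/
lemma FormC5.odd [Fintype F] {G : Matrix ι ι F} (hG : IsUnit G) (hG' : ∀ F₁ : Subfield F, Over F₁ G)
    (hodd : Odd (Fintype.card ι)) {H : Subgroup (GL ι F)} (h : FormC5 (RingEquiv.refl F) G H) :
    ∃ (F₁ : Subfield F) (r : ℕ) (P : GL ι F), r.Prime ∧ Fintype.card F = Nat.card F₁ ^ r ∧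
      Over F₁ (pbG (RingEquiv.refl F) (Equiv.refl ι) P G) ∧ H ≤ subfieldSubgroup F₁ P := by
  obtain ⟨F₁, r, P, ζ, h1, h2, h3, h4, h5⟩ := h
  obtain ⟨k, hk⟩ := hodd
  have hd : G.det ≠ 0 := ((Matrix.isUnit_iff_isUnit_det G).1 hG).ne_zero
  have hP : (P : Matrix ι ι F).det ≠ 0 := ((Matrix.isUnit_iff_isUnit_det _).1 P.isUnit).ne_zero
  have h6 := div_mem h4.det (hG' F₁).det
  rw [Matrix.det_smul, det_pbG, hk, RingEquiv.refl_apply] at h6
  have h7 : ζ ^ k * (P : Matrix ι ι F).det ≠ 0 := mul_ne_zero (pow_ne_zero _ h3) hP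
  refine ⟨F₁, r, P * sc ι (Units.mk0 _ h7)⁻¹, h1, h2, ?_, by rwa [subfieldSubgroup_mul_sc]⟩
  have := h4.smul (inv_mem h6)
  rw [smul_smul] at this
  rw [pbG_mul_sc]
  convert this using 2
  simp only [Units.val_inv_eq_inv_val, Units.val_mk0, RingEquiv.refl_apply]
  field_simp
  ring

/-- the fixed field of an involution -/
def fixSub (σ : F ≃+* F) : Subfield F := (σ : F →+* F).eqLocusField (RingHom.id F)

lemma mem_fixSub {σ : F ≃+* F} {x : F} : x ∈ fixSub σ ↔ σ x = x := Iff.rfl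

lemma fixSub_ne_top {σ : F ≃+* F} (hne : σ ≠ RingEquiv.refl F) : fixSub σ ≠ ⊤ := fun h =>
  hne (RingEquiv.ext fun x => mem_fixSub.1 (h ▸ Subfield.mem_top x))

lemma invol_eq_pow [Fintype F] {σ : F ≃+* F} (hσ : ∀ a, σ (σ a) = a) (hne : σ ≠ RingEquiv.refl F) {q : ℕ}
    (hF : Fintype.card F = q ^ 2) (a : F) : σ a = a ^ q := by
  let ρ : F ≃+* F := RingEquiv.ofBijective (H7.qFrob hF) (Function.Involutive.bijective (H7.qFrob_qFrob hF))
  rw [invol_unique (ρ := ρ) hσ (H7.qFrob_qFrob hF) hne fun h => by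
    obtain ⟨a, ha⟩ := H7.qFrob_ne hF
    exact ha (DFunLike.congr_fun h a)]
  rfl

lemma card_eq_card_fixSub_sq [Fintype F] {σ : F ≃+* F} (hσ : ∀ a, σ (σ a) = a) (hne : σ ≠ RingEquiv.refl F) :
    Fintype.card F = Nat.card (fixSub σ) ^ 2 := by
  obtain ⟨δ, h0, hδ⟩ := H7.exists_skew (σ : F →+* F) hσ (exists_ne_of_ne_refl hne)
  obtain ⟨θ, hθ⟩ := H7.exists_trace_one (σ : F →+* F) hσ (exists_ne_of_ne_refl hne)
  simp only [RingHom.coe_coe] at hδ hθ
  rw [sq, ← Nat.card_prod, ← Nat.card_eq_fintype_card]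
  refine Nat.card_congr ⟨fun x => (⟨x + σ x, by rw [mem_fixSub, map_add, hσ, add_comm]⟩,
    ⟨(x - θ * (x + σ x)) / δ, ?_⟩), fun p => θ * p.1 + δ * p.2, fun x => ?_, fun p => ?_⟩
  · rw [mem_fixSub, map_div₀, hδ, map_sub, map_mul, map_add, hσ]
    field_simp
    linear_combination (x + σ x) * hθ
  · simp only
    field_simp
    ring
  · obtain ⟨⟨a, ha⟩, ⟨b, hb⟩⟩ := p
    rw [mem_fixSub] at ha hb
    have : θ * a + δ * b + σ (θ * a + δ * b) = a := by
      rw [map_add, map_mul, map_mul, ha, hb, hδ]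
      linear_combination a * hθ
    simp only [this, Prod.mk.injEq, Subtype.mk.injEq, true_and]
    field_simp
    ring

lemma eq_fixSub [Fintype F] {σ : F ≃+* F} (hσ : ∀ a, σ (σ a) = a) (hne : σ ≠ RingEquiv.refl F) {F₁ : Subfield F}
    (hF : Fintype.card F = Nat.card F₁ ^ 2) : F₁ = fixSub σ := by
  ext x
  rw [mem_subfield_iff, mem_fixSub, invol_eq_pow hσ hne hF]

lemma exists_ne_of_odd_index [Fintype F] {σ : F ≃+* F} (hσ : ∀ a, σ (σ a) = a) (hne : σ ≠ RingEquiv.refl F)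
    {F₁ : Subfield F} {r : ℕ} (hr : Odd r) (hF : Fintype.card F = Nat.card F₁ ^ r) : ∃ a ∈ F₁, σ a ≠ a := by
  by_contra! h
  have hle : F₁ ≤ fixSub σ := h
  letI : Algebra F₁ (fixSub σ) := (Subfield.inclusion hle).toAlgebra
  rw [card_eq_card_fixSub_sq hσ hne, Module.natCard_eq_pow_finrank (K := F₁) (V := fixSub σ), ← pow_mul] at hF
  have := Nat.pow_right_injective (Finite.one_lt_card (α := F₁)) hF
  obtain ⟨k, hk⟩ := hr
  omega

/-- unitary class 5 -/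
def UniC5 [Fintype F] (σ : F ≃+* F) (G : Matrix ι ι F) (H : Subgroup (GL ι F)) : Prop :=
  (∃ (F₀ : Subfield F) (r : ℕ) (P : GL ι F), r.Prime ∧ Odd r ∧ Fintype.card F = Nat.card F₀ ^ r ∧
    IsFormRationalStructure (gf σ G) F₀ 1 P ∧ H ≤ subfieldSubgroup F₀ P) ∨
  (∃ (F₀ : Subfield F) (P : GL ι F), Odd (Fintype.card F) ∧ Fintype.card F = Nat.card F₀ ^ 2 ∧
    IsFormRationalStructure (gf σ G) F₀ 1 P ∧ H ≤ subfieldSubgroup F₀ P) ∨
  (∃ (F₀ : Subfield F) (P : GL ι F) (ζ : F), Even (Fintype.card ι) ∧ Fintype.card F = Nat.card F₀ ^ 2 ∧ ζ ≠ 0 ∧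
    ζ + σ ζ = 0 ∧ IsFormRationalStructure (gf σ G) F₀ ζ P ∧
    (∀ u : ι → F, (∀ i, u i ∈ F₀) → gf σ G ((P : Matrix ι ι F) *ᵥ u) ((P : Matrix ι ι F) *ᵥ u) = 0) ∧
    H ≤ subfieldSubgroup F₀ P)

lemma exists_rescale [Finite F] {σ : F ≃+* F} (hσ : ∀ a, σ (σ a) = a) (hne : σ ≠ RingEquiv.refl F) {G : Matrix ι ι F}
    {F₁ : Subfield F} {P : GL ι F} {ζ : F} (h0 : ζ ≠ 0) (hζ : σ ζ = ζ) (h : Over F₁ (ζ • pbG σ (Equiv.refl ι) P G)) :
    ∃ P', Over F₁ ((1 : F) • pbG σ (Equiv.refl ι) P' G) ∧ subfieldSubgroup F₁ P' = subfieldSubgroup F₁ P := by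
  obtain ⟨a, ha⟩ := H7.exists_norm_eq (σ : F →+* F) hσ (exists_ne_of_ne_refl hne) hζ
  have ha0 : a ≠ 0 := by rintro rfl; exact h0 (by rw [← ha, zero_mul])
  refine ⟨P * sc ι (Units.mk0 a ha0), ?_, subfieldSubgroup_mul_sc _ _ _⟩
  rw [one_smul, pbG_mul_sc]
  exact ha ▸ h

lemma map_eq_of_over {σ : F ≃+* F} {x : Matrix ι ι F} (hx : Over (fixSub σ) x) : x.map σ = x := by
  ext i j; exact hx i j

lemma gf_eq_of_over {σ : F ≃+* F} (G : Matrix ι ι F) (u : ι → F) {v : ι → F} (hv : ∀ i, v i ∈ fixSub σ) :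
    gf σ G u v = gf (RingEquiv.refl F) G u v := by
  have : σ ∘ v = v := funext hv
  rw [gf, this]; rfl

/-- a subgroup of the subfield group over the fixed field preserves the bilinear form with the same Gram matrix -/
lemma le_sim_refl_of_fixSub {σ : F ≃+* F} {G G' : Matrix ι ι F} {P : GL ι F}
    (hG' : pbG (RingEquiv.refl F) (Equiv.refl ι) P G' = pbG σ (Equiv.refl ι) P G) {H : Subgroup (GL ι F)}
    (hs : H ≤ similarityGroup (gf σ G)) (hle : H ≤ subfieldSubgroup (fixSub σ) P) :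
    H ≤ similarityGroup (gf (RingEquiv.refl F) G') := by
  intro g hg
  obtain ⟨c, y, hc, hy⟩ := (mem_subfieldSubgroup_iff _ _ _).1 (hle hg)
  have h1 := hs hg
  obtain ⟨g, rfl⟩ := (trGL (Equiv.refl ι) P).surjective g
  rw [trGL_mem_similarityGroup, mem_similarityGroup_gf] at h1 ⊢
  rw [coe_trGL, tr_refl, cj_inv_cj] at hy
  obtain ⟨d, hd⟩ := h1
  have h2 : (g : Matrix ι ι F).map σ = (σ c / c) • (g : Matrix ι ι F) := by
    rw [hy, map_smul_equiv, smul_smul, div_mul_cancel₀ _ hc, map_eq_of_over]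
    exact fun i j => ((y : Matrix ι ι (fixSub σ)) i j).2
  have h3 : σ c / c ≠ 0 := div_ne_zero (by simpa using hc) hc
  refine ⟨d * (Units.mk0 _ h3)⁻¹, ?_⟩
  rw [h2, Matrix.mul_smul] at hd
  rw [hG', map_refl, Units.val_mul, mul_comm, mul_smul, ← hd, smul_smul, Units.val_inv_eq_inv_val, Units.val_mk0,
    inv_mul_cancel₀ h3, one_smul]

lemma FormC5.uni [Fintype F] {σ : F ≃+* F} {G : Matrix ι ι F} (hG : Herm σ 1 G) (hne : σ ≠ RingEquiv.refl F)
    (hn : 2 ≤ Fintype.card ι) {H : Subgroup (GL ι F)} (hH : Irred H) (hs : H ≤ similarityGroup (gf σ G))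
    (h : FormC5 σ G H) : UniC5 σ G H := by
  haveI : Nonempty ι := Fintype.card_pos_iff.1 (by omega)
  obtain ⟨F₁, r, P, ζ, h1, h2, h3, h4, h5⟩ := h
  have hΓ := hG.pbG (Equiv.refl ι) P
  have hu := isUnit_smul_of_ne_zero h3 hΓ.unit
  have h6 : ((ζ • pbG σ (Equiv.refl ι) P G).map σ)ᵀ = (σ ζ / ζ) • (ζ • pbG σ (Equiv.refl ι) P G) := by
    rw [map_smul_equiv, Matrix.transpose_smul, hΓ.star, one_smul, smul_smul, div_mul_cancel₀ _ h3]
  have h7 : σ ζ / ζ ∈ F₁ := h4.mem_of_smul hu.ne_zero (h6 ▸ (h4.map σ).transpose)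
  have h8 : σ ζ ≠ 0 := by simpa using h3
  have h9 : σ ζ / ζ * σ (σ ζ / ζ) = 1 := by rw [map_div₀, hG.invol]; field_simp
  rcases h1.eq_two_or_odd' with rfl | hodd
  swap
  · left
    obtain ⟨b, hb, hb'⟩ := exists_ne_of_odd_index hG.invol hne hodd h2
    obtain ⟨a, ha0, ha⟩ := H7.exists_div_conj (F := F₁) ((σ : F →+* F).restrict F₁ F₁ fun x => map_mem_subfield σ)
      (fun x => Subtype.ext (hG.invol x)) ⟨⟨b, hb⟩, fun h => hb' (congrArg Subtype.val h)⟩ (x := ⟨_, h7⟩)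
      (Subtype.ext h9)
    have ha' : (a : F) = σ ζ / ζ * σ a := congrArg Subtype.val ha
    have ha0' : (a : F) ≠ 0 := fun h => ha0 (Subtype.ext h)
    obtain ⟨P', h10, h11⟩ := exists_rescale hG.invol hne (F₁ := F₁) (G := G) (P := P) (ζ := a * ζ) (mul_ne_zero ha0' h3)
      (by rw [map_mul]; nth_rewrite 2 [ha']; field_simp) (by rw [mul_smul]; exact h4.smul a.2)
    exact ⟨F₁, r, P', h1, hodd, h2, isFormRationalStructure_of_over h10, h11 ▸ h5⟩
  obtain rfl := eq_fixSub hG.invol hne h2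
  rw [mem_fixSub.1 h7] at h9
  rw [map_eq_of_over h4] at h6
  have halt : ∀ (P : GL ι F) (ζ : F), ζ ≠ 0 → Over (fixSub σ) (ζ • pbG σ (Equiv.refl ι) P G) →
      H ≤ subfieldSubgroup (fixSub σ) P → ζ + σ ζ = 0 → (ζ • pbG σ (Equiv.refl ι) P G)ᵀ = -(ζ • pbG σ (Equiv.refl ι) P G) →
      (∀ v, gf (RingEquiv.refl F) (ζ • pbG σ (Equiv.refl ι) P G) v v = 0) → UniC5 σ G H := by
    intro P ζ k1 k2 k3 k4 k5 k6
    refine Or.inr (Or.inr ⟨_, P, ζ, even_card_of_alt (isUnit_smul_of_ne_zero k1 (hG.pbG _ P).unit) k5 fun i => ?_, h2,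
      k1, k4, isFormRationalStructure_of_over k2, fun u hu => ?_, k3⟩)
    · exact (gf_single (RingEquiv.refl F) _ i i).symm.trans (k6 _)
    · have := k6 u
      rw [← gf_eq_of_over _ _ hu, gf_smul, pbG_refl, ← gf_mulVec] at this
      exact (mul_eq_zero.1 this).resolve_left k1
  by_cases hodd : Odd (Fintype.card F)
  · rcases mul_self_eq_one_iff.1 h9 with h | h
    · obtain ⟨P', h10, h11⟩ := exists_rescale hG.invol hne h3 ((div_eq_one_iff_eq h3).1 h) h4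
      exact Or.inr (Or.inl ⟨_, P', hodd, h2, isFormRationalStructure_of_over h10, h11 ▸ h5⟩)
    · rw [h, neg_one_smul] at h6
      exact halt P ζ h3 h4 h5 (by rw [div_eq_iff h3] at h; linear_combination h) h6
        (alt_of_skew (odd_card_iff.1 hodd) h6)
  · have h2' : (2 : F) = 0 := by by_contra h; exact hodd (odd_card_iff.2 h)
    have h : σ ζ / ζ = 1 := by
      rcases mul_self_eq_one_iff.1 h9 with h | h
      · exact h
      · rw [h]; linear_combination -h2'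
    obtain ⟨P', h10, h11⟩ := exists_rescale hG.invol hne h3 ((div_eq_one_iff_eq h3).1 h) h4
    have h12 : (pbG σ (Equiv.refl ι) P' G)ᵀ = pbG σ (Equiv.refl ι) P' G := by
      have := (hG.pbG (Equiv.refl ι) P').star
      rwa [map_eq_of_over (by simpa using h10), one_smul] at this
    obtain ⟨G', hG'⟩ := pbG_surjective (RingEquiv.refl F) (Equiv.refl ι) P' (pbG σ (Equiv.refl ι) P' G)
    have h13 := hH.alt_of_symm h2' hn (G := G') (pbG_injective (RingEquiv.refl F) (Equiv.refl ι) P' (by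
      rw [pbG_transpose, hG', h12])) (le_sim_refl_of_fixSub hG' hs (h11 ▸ h5))
    refine halt P' 1 one_ne_zero h10 (h11 ▸ h5) (by rw [map_one]; linear_combination h2') ?_ fun v => ?_
    · rw [one_smul, h12, ← neg_one_smul F, show (-1 : F) = 1 by linear_combination -h2', one_smul]
    · rw [one_smul, ← hG', ← gf_trv, h13]

end Cfsg.Agent.Asch
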