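import Cfsg.Agent.Asch.FormPower

/-! Symplectic-type groups relative to a form. -/

set_option autoImplicit false
set_option linter.unusedSimpArgs false
set_option linter.unusedSectionVars false

namespace Cfsg.Agent.Asch

open scoped MatrixGroups Matrix Kronecker
open Cfsg Cfsg.Geo

variable {ι : Type} [Fintype ι] [DecidableEq ι] {F : Type*} [Field F]

lemma isPrimitiveRoot_neg_one (h2 : (2 : F) ≠ 0) : IsPrimitiveRoot (-1 : F) 2 := by
  haveI : Fact (Nat.Prime 2) := ⟨Nat.prime_two⟩
  have : orderOf (-1 : F) = 2 := orderOf_eq_prime (by ring) fun h => h2 (by linear_combination -h)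
  exact this ▸ IsPrimitiveRoot.orderOf (-1 : F)

lemma trace_adj {σ : F ≃+* F} {G : Matrix ι ι F} (hG : IsUnit G) (x : Matrix ι ι F) :
    (adj σ G x).trace = σ.symm x.trace := by
  have : (adj σ G x).trace = σ.symm (G⁻¹ * xᵀ * G).trace := by
    simp only [adj, Matrix.trace, Matrix.diag, Matrix.map_apply, map_sum]
  rw [this, Matrix.trace_mul_cycle, Matrix.mul_nonsing_inv _ ((Matrix.isUnit_iff_isUnit_det G).1 hG), one_mul,
    Matrix.trace_transpose]

lemma FixesGram.trace_inv {σ : F ≃+* F} {G : Matrix ι ι F} (hG : IsUnit G) {N : Subgroup (GL ι F)}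
    (h : FixesGram σ N G) {x : GL ι F} (hx : x ∈ N) :
    ((x⁻¹ : GL ι F) : Matrix ι ι F).trace = σ.symm (x : Matrix ι ι F).trace := by
  rw [← adj_of_fixes hG (h x hx), trace_adj hG]

/-- a group fixing both a bilinear and a unitary form is realisable over a proper subfield -/
lemma AbsIrr.realisable_of_two [Finite F] {N : Subgroup (GL ι F)} (hN : AbsIrr N) {σ : F ≃+* F} {G G' : Matrix ι ι F}
    (hG : IsUnit G) (hG' : IsUnit G') (h : FixesGram σ N G) (h' : FixesGram (RingEquiv.refl F) N G') :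
    RealisableOver (fixSub σ) (matrixSet N) :=
  hN.realisableOver _ fun x hx => by
    have h1 := h.trace_inv hG hx
    rw [h'.trace_inv hG' hx, eq_comm, RingEquiv.symm_apply_eq] at h1
    exact h1.symm

lemma twist_adj [Nonempty ι] {σ : F ≃+* F} {G : Matrix ι ι F} (hG : IsUnit G) {x y : GL ι F}
    (hx : x ∈ similarityGroup (gf σ G)) (hy : y ∈ similarityGroup (gf σ G)) {c : F}
    (h : (x : Matrix ι ι F) * y = c • ((y : Matrix ι ι F) * x)) : c * σ.symm c = 1 := by
  obtain ⟨a, ha⟩ := mem_similarityGroup_gf.1 hx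
  obtain ⟨b, hb⟩ := mem_similarityGroup_gf.1 hy
  have h1 := congrArg (adj σ G) h
  rw [adj_smul, adj_mul hG, adj_mul hG, adj_of_sim hG ha, adj_of_sim hG hb] at h1
  have h2 := congrArg (fun z => z * ((x : Matrix ι ι F) * y)) h1
  simp only [Matrix.smul_mul, Matrix.mul_smul, mul_assoc, Units.inv_mul_cancel_left, Units.inv_mul] at h2
  rw [h] at h2
  simp only [Matrix.smul_mul, Matrix.mul_smul, mul_assoc, Units.inv_mul_cancel_left, Units.inv_mul, smul_smul] at h2
  have h3 := smul_one_injective h2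
  have ha0 : σ.symm a ≠ 0 := by simp
  have hb0 : σ.symm b ≠ 0 := by simp
  apply mul_left_cancel₀ (mul_ne_zero ha0 hb0)
  linear_combination -h3

lemma RData.eq_two {r : ℕ} {R : Subgroup (GL ι F)} (h : RData r R) (hn : 2 ≤ Fintype.card ι) {G : Matrix ι ι F}
    (hG : IsUnit G) (hs : R ≤ similarityGroup (gf (RingEquiv.refl F) G)) : r = 2 := by
  haveI : Nonempty ι := Fintype.card_pos_iff.1 (by omega)
  obtain ⟨x, hx, y, hy, c, h1, h2, h3⟩ := h.exists_root hn
  have := twist_adj hG (hs hx) (hs hy) h3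
  exact (Nat.prime_dvd_prime_iff_eq h.prime Nat.prime_two).1
    ((isPrimitiveRoot_of_ne_one h.prime h1 h2).dvd_of_pow_eq_one 2 (by rw [sq]; exact this))

lemma card_lt_of_alt [Nonempty ι] (h2 : (2 : F) ≠ 0) (hn : (Fintype.card ι : F) ≠ 0) {G : Matrix ι ι F} (hG : IsUnit G)
    (halt : ∀ v, gf (RingEquiv.refl F) G v v = 0) {B : Type*} [CommGroup B] [Finite B] (hB : ∀ b : B, b * b = 1)
    (ρ : B →* Matrix ι ι F) (htr : ∀ b, b ≠ 1 → (ρ b).trace = 0) (hsa : ∀ b, adj (RingEquiv.refl F) G (ρ b) = ρ b) :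
    Nat.card B < Fintype.card ι := by
  classical
  haveI := Fintype.ofFinite B
  haveI : HasEnoughRootsOfUnity F 2 := ⟨⟨-1, isPrimitiveRoot_neg_one h2⟩, inferInstance⟩
  haveI : HasEnoughRootsOfUnity F (Monoid.exponent B) :=
    HasEnoughRootsOfUnity.of_dvd F (Monoid.exponent_dvd_of_forall_pow_eq_one (n := 2) fun b => by rw [sq, hB])
  have hc := CommGroup.card_monoidHom_of_hasEnoughRootsOfUnity B F
  haveI : Finite (B →* Fˣ) := Nat.finite_of_card_ne_zero (by rw [hc]; exact Nat.card_pos.ne')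
  haveI := Fintype.ofFinite (B →* Fˣ)
  have key : ∀ χ : B →* Fˣ, ∃ v : ι → F, v ≠ 0 ∧ ∀ b, ρ b *ᵥ v = (χ b : F) • v := by
    intro χ
    have h0 : ∑ a, (χ a : F) • ρ a ≠ 0 := by
      intro h
      have := congrArg Matrix.trace h
      rw [Matrix.trace_sum, Finset.sum_eq_single 1 (fun b _ hb => by rw [Matrix.trace_smul, htr b hb, smul_zero])
        (by simp)] at this
      exact hn (by simpa using this)
    obtain ⟨v, hv, hv0⟩ := Submodule.exists_mem_ne_zero_of_ne_bot (rng_ne_bot h0)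
    obtain ⟨u, rfl⟩ := mem_rng.1 hv
    refine ⟨_, hv0, fun b => ?_⟩
    rw [Matrix.mulVec_mulVec, ← Matrix.smul_mulVec, Finset.mul_sum, Finset.smul_sum]
    congr 1
    refine Fintype.sum_equiv (Equiv.mulLeft b) _ _ fun a => ?_
    rw [Equiv.coe_mulLeft, smul_smul, ← Units.val_mul, ← map_mul, ← mul_assoc, hB, one_mul, map_mul, Matrix.mul_smul]
  choose v hv0 hv using key
  have hli : LinearIndependent F v := by
    rw [Fintype.linearIndependent_iff]
    intro c hc0 χ
    obtain ⟨i, hi⟩ := Function.ne_iff.1 (hv0 χ)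
    have h1 := ((linearIndependent_monoidHom B F).comp (fun ψ : B →* Fˣ => (Units.coeHom F).comp ψ)
      fun a b h => MonoidHom.ext fun x => Units.ext (DFunLike.congr_fun h x))
    have := Fintype.linearIndependent_iff.1 h1 (fun ψ => c ψ * v ψ i) (by
      ext b
      have := congrFun (congrArg (ρ b *ᵥ ·) hc0) i
      simp only [Matrix.mulVec_sum, Matrix.mulVec_smul, hv, Matrix.mulVec_zero, Finset.sum_apply, Pi.smul_apply,
        smul_eq_mul] at this
      simp only [Finset.sum_apply, Pi.smul_apply, smul_eq_mul, Function.comp_apply, MonoidHom.coe_comp,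
        Units.coeHom_apply]
      exact (Finset.sum_congr rfl fun _ _ => by ring).trans this) χ
    exact (mul_eq_zero.1 this).resolve_right hi
  by_contra hlt
  have hsp : Submodule.span F (Set.range v) = ⊤ := hli.span_eq_top_of_card_eq_finrank' (le_antisymm
    hli.fintype_card_le_finrank (by rw [Module.finrank_fintype_fun_eq_card, ← Nat.card_eq_fintype_card (α := B →* Fˣ), hc]; omega))
  have horth : ∀ χ ψ, gf (RingEquiv.refl F) G (v χ) (v ψ) = 0 := by
    intro χ ψ
    by_cases h : χ = ψ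
    · rw [h, halt]
    obtain ⟨b, hb⟩ := DFunLike.ne_iff.1 h
    have := gf_adj (σ := RingEquiv.refl F) hG (ρ b) (v χ) (v ψ)
    rw [hsa, hv, hv, (sesq_gf _ G).smul_left, (sesq_gf _ G).smul_right] at this
    exact (mul_eq_mul_right_iff.1 this).resolve_left fun h' => hb (Units.ext h')
  obtain ⟨x, hx⟩ := ((nondeg_gf_iff (RingEquiv.refl F) G).2 hG _ (hv0 1)).1
  obtain ⟨c, rfl⟩ := (Submodule.mem_span_range_iff_exists_fun F).1 (hsp ▸ Submodule.mem_top : x ∈ _)
  apply hx
  rw [(sesq_gf _ G).sum_left]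
  exact Finset.sum_eq_zero fun χ _ => by rw [(sesq_gf _ G).smul_left, horth, mul_zero]

lemma FixesGram.sq_eq_one [Nonempty ι] {G : Matrix ι ι F} (hG : IsUnit G) {N : Subgroup (GL ι F)}
    (hf : FixesGram (RingEquiv.refl F) N G) {c : Fˣ} (hc : sc ι c ∈ N) : c ^ 2 = 1 := by
  have := hf _ hc
  rw [coe_sc, map_refl, Matrix.transpose_smul, Matrix.transpose_one, Matrix.smul_mul, Matrix.smul_mul, one_mul,
    Matrix.mul_smul, mul_one, smul_smul] at this
  exact Units.ext (by
    rw [Units.val_pow_eq_pow_val, sq]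
    exact smul_left_injective F hG.ne_zero (this.trans (one_smul F G).symm))

lemma sc_neg_one : sc ι (-1 : Fˣ) = -1 := Units.ext (by rw [coe_sc]; simp)

namespace RData

variable {R : Subgroup (GL ι F)} {G : Matrix ι ι F}

lemma sat_two (h : RData 2 R) (hn : 2 ≤ Fintype.card ι) (hG : IsUnit G) (hf : FixesGram (RingEquiv.refl F) R G)
    (c : Fˣ) : sc ι c ∈ R ↔ c ^ 2 = 1 := by
  haveI : Nonempty ι := Fintype.card_pos_iff.1 (by omega)
  refine ⟨hf.sq_eq_one hG, fun hc => ?_⟩
  rcases sq_eq_one_iff.1 (show (c : F) ^ 2 = 1 by rw [← Units.val_pow_eq_pow_val, hc, Units.val_one]) with h1 | h1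
  · rw [show c = 1 from Units.ext h1, map_one]; exact R.one_mem
  · rw [show c = -1 from Units.ext h1, sc_neg_one]; exact h.neg_mem hn R.one_mem

lemma exp_four (h : RData 2 R) (hn : 2 ≤ Fintype.card ι) (hG : IsUnit G) (hf : FixesGram (RingEquiv.refl F) R G)
    (x : GL ι F) (hx : x ∈ R) : x ^ 4 = 1 := by
  obtain ⟨c, hc⟩ := mem_scalars_iff_sc.1 (h.pow x hx)
  rw [show 4 = 2 * 2 from rfl, pow_mul, ← hc, ← map_pow, (h.sat_two hn hG hf c).1 (hc ▸ R.pow_mem hx 2), map_one]

lemma card_center_two (h : RData 2 R) (hn : 2 ≤ Fintype.card ι) (hG : IsUnit G)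
    (hf : FixesGram (RingEquiv.refl F) R G) : Nat.card (Subgroup.center R) = 2 := by
  haveI : Nonempty ι := Fintype.card_pos_iff.1 (by omega)
  exact h.card_center (by norm_num) (h.sat_two hn hG hf) (isPrimitiveRoot_neg_one (h.two_ne_zero hn))

lemma isOfMinusType [Finite F] (h : RData 2 R) (hn : 2 ≤ Fintype.card ι) (hG : IsUnit G)
    (hf : FixesGram (RingEquiv.refl F) R G) (halt : ∀ v, gf (RingEquiv.refl F) G v v = 0) {k : ℕ}
    (hk : Fintype.card ι = 2 ^ k) : IsOfMinusType k R := by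
  haveI : Nonempty ι := Fintype.card_pos_iff.1 (by omega)
  intro A hA hA2
  have h2 := h.two_ne_zero hn
  letI : CommGroup A := { (inferInstance : Group A) with mul_comm := hA.is_comm.comm }
  have hA3 : ∀ b : A, b * b = 1 := fun b => Subtype.ext (hA2 b b.2)
  let ρ : A →* Matrix ι ι F := (Units.coeHom _).comp (R.subtype.comp A.subtype)
  have hρ : Function.Injective ρ := fun a b h => Subtype.ext (Subtype.ext (Units.ext h))
  have key : ∀ B : Subgroup A, (∀ b ∈ B, ρ b ≠ -1) → Nat.card B < 2 ^ k := fun B hB => by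
    rw [← hk]
    refine card_lt_of_alt h2 h.card_ne_zero hG halt (fun b : B => Subtype.ext (hA3 b)) (ρ.comp B.subtype)
      (fun b hb => h.trace_eq_zero b.1.1.2 fun hs => ?_) fun b => ?_
    · obtain ⟨c, hc⟩ := mem_scalars_iff_sc.1 hs
      change sc ι c = b.1.1.1 at hc
      have h3 := (h.sat_two hn hG hf c).1 (hc ▸ b.1.1.2)
      rcases sq_eq_one_iff.1 (show (c : F) ^ 2 = 1 by rw [← Units.val_pow_eq_pow_val, h3, Units.val_one]) with h1 | h1
      · exact hb (Subtype.ext (Subtype.ext (Subtype.ext (by rw [← hc, show c = 1 from Units.ext h1, map_one]; rfl))))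
      · exact hB b b.2 (by
          change ((b.1.1.1 : GL ι F) : Matrix ι ι F) = -1
          rw [← hc, show c = -1 from Units.ext h1, sc_neg_one]; rfl)
    · refine (adj_of_fixes hG (hf _ b.1.1.2)).trans (congrArg Units.val (inv_eq_of_mul_eq_one_right ?_))
      exact congrArg (fun x : A => x.1.1) (hA3 b)
  by_cases hm : ∃ a : A, ρ a = -1
  · obtain ⟨a, ha⟩ := hm
    haveI : HasEnoughRootsOfUnity F 2 := ⟨⟨-1, isPrimitiveRoot_neg_one h2⟩, inferInstance⟩
    haveI : HasEnoughRootsOfUnity F (Monoid.exponent A) :=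
      HasEnoughRootsOfUnity.of_dvd F (Monoid.exponent_dvd_of_forall_pow_eq_one (n := 2) fun b => by rw [sq, hA3])
    obtain ⟨ψ, hψ⟩ := CommGroup.exists_apply_ne_one_of_hasEnoughRootsOfUnity A F (a := a) (by
      rintro rfl
      rw [map_one, ← one_smul F (1 : Matrix ι ι F), ← neg_smul] at ha
      exact h2 (by linear_combination smul_one_injective ha))
    have h3 := key ψ.ker fun b hb hb' => hψ (by rw [← hρ (hb'.trans ha.symm)]; exact hb)
    have h4 : ψ.ker.index ≤ 2 := by
      rw [Subgroup.index_ker]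
      refine (Nat.card_le_card_of_injective (β := rootsOfUnity 2 F) (Subgroup.inclusion ?_)
        (Subgroup.inclusion_injective _)).trans (card_rootsOfUnity F 2)
      rintro _ ⟨b, rfl⟩
      rw [mem_rootsOfUnity, ← map_pow, sq, hA3, map_one]
    rw [← ψ.ker.card_mul_index, pow_succ]
    exact Nat.mul_lt_mul_of_lt_of_le h3 h4 (by norm_num)
  · push Not at hm
    have := key ⊤ fun b _ => hm b
    rw [Subgroup.card_top] at this
    rw [pow_succ]; omega

/-- an extraspecial group of isometries of a symmetric form forces plus type -/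
lemma exists_isotropic [Finite F] (h : RData 2 R) (hn : 3 ≤ Fintype.card ι) (hG : Herm (RingEquiv.refl F) 1 G)
    (hf : FixesGram (RingEquiv.refl F) R G) :
    ∃ U : Submodule F (ι → F), IsTotallySingularFor (gf (RingEquiv.refl F) G) U ∧
      2 * Module.finrank F U = Fintype.card ι := by
  haveI : Nonempty ι := Fintype.card_pos_iff.1 (by omega)
  have h2 := h.two_ne_zero (by omega)
  have hexp := h.exp_four (by omega) hG.unit hf
  obtain ⟨x, hx, hs⟩ := SetLike.not_le_iff_exists.1 (not_le_scalars_of_irred h.abs.irred (by omega))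
  obtain ⟨b, hb, hb2, hxb⟩ := h.exists_anti_sq hn hexp hx hs
  obtain ⟨c, hc, hc2, hbc⟩ := h.exists_anti_sq hn hexp hb fun hs' => twist_ne (c := -1)
    (fun h' => h2 (by linear_combination -h')) (by rw [hxb, neg_one_smul]) (scalars_comm hs' x).symm
  have hadj : ∀ y ∈ R, (y : Matrix ι ι F) * y = -1 → adj (RingEquiv.refl F) G (y : Matrix ι ι F) = -y := fun y hy h => by
    rw [adj_of_fixes hG.unit (hf y hy), ← mul_one ((y⁻¹ : GL ι F) : Matrix ι ι F), ← neg_neg (1 : Matrix ι ι F), ← h,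
      mul_neg, Units.inv_mul_cancel_left]
  have hb' := hadj b hb hb2
  have hc' := hadj c hc hc2
  obtain ⟨α, β, hαβ⟩ := exists_sq_add_sq h2 (one_ne_zero (α := F)) one_ne_zero (-1)
  generalize (b : Matrix ι ι F) = i at *
  generalize (c : Matrix ι ι F) = j at *
  have hji : j * i = -(i * j) := by rw [hbc, neg_neg]
  have hi2 : ∀ y, i * (i * y) = -y := fun y => by rw [← mul_assoc, hb2, neg_one_mul]
  have hji' : ∀ y, j * (i * y) = -(i * (j * y)) := fun y => by rw [← mul_assoc, hji, neg_mul, mul_assoc]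
  set z := α • i + β • j + i * j with hz
  have hz1 : adj (RingEquiv.refl F) G z = -z := by
    rw [hz, adj_add, adj_add, adj_smul, adj_smul, adj_mul hG.unit, hb', hc', neg_mul_neg, hji]
    change α • _ + β • _ + _ = _
    simp only [smul_neg, neg_add]
  have hz2 : z * z = 0 := by
    have : z * z = -((1 * α ^ 2 + 1 * β ^ 2 + 1) • (1 : Matrix ι ι F)) := by
      simp only [hz, mul_add, add_mul, Matrix.smul_mul, Matrix.mul_smul, mul_assoc, hi2, hji', hji, hb2, hc2, mul_neg,
        mul_one, neg_neg]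
      module
    rw [this, hαβ]; simp
  have hz3 : z * (i * j) + (i * j) * z = -((2 : F) • (1 : Matrix ι ι F)) := by
    simp only [hz, mul_add, add_mul, Matrix.smul_mul, Matrix.mul_smul, mul_assoc, hi2, hji', hji, hb2, hc2, mul_neg,
      mul_one, neg_neg]
    module
  have hti : IsTotallySingularFor (gf (RingEquiv.refl F) G) (rng z) := fun u hu v hv => by
    obtain ⟨u, rfl⟩ := mem_rng.1 hu
    obtain ⟨v, rfl⟩ := mem_rng.1 hv
    rw [gf_adj hG.unit, hz1, Matrix.mulVec_mulVec, neg_mul, hz2, neg_zero, Matrix.zero_mulVec, (sesq_gf _ G).zero_right]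
  refine ⟨rng z, hti, le_antisymm ?_ ?_⟩
  · have h3 := hG.finrank_perp (hG.trVal_of_two h2) (rng z)
    have h4 : rng z ≤ (hG.polar (hG.trVal_of_two h2)).perp (rng z) := fun u hu v hv => hti u hu v hv
    have := Submodule.finrank_mono h4
    omega
  · have h3 := LinearMap.finrank_range_add_finrank_ker (Matrix.toLin' z)
    have h4 : LinearMap.ker (Matrix.toLin' z) ≤ rng z := fun v hv => by
      rw [LinearMap.mem_ker, Matrix.toLin'_apply] at hv
      have := congrArg (· *ᵥ v) hz3
      simp only [Matrix.add_mulVec, ← Matrix.mulVec_mulVec v (i * j) z, hv, Matrix.mulVec_zero, add_zero,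
        ← Matrix.mulVec_mulVec v z] at this
      refine mem_rng.2 ⟨(-(2 : F)⁻¹) • ((i * j) *ᵥ v), ?_⟩
      rw [Matrix.mulVec_smul, this, Matrix.neg_mulVec, Matrix.smul_mulVec, Matrix.one_mulVec, smul_neg, neg_smul, neg_neg,
        smul_smul, inv_mul_cancel₀ h2, one_smul]
    have := Submodule.finrank_mono h4
    rw [Module.finrank_fintype_fun_eq_card] at h3
    unfold rng at this ⊢
    omega

lemma prime_or_formC5 [Fintype F] {ε : F} (h : RData 2 R) (hn : 2 ≤ Fintype.card ι) (hG : Herm (RingEquiv.refl F) ε G)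
    (hf : FixesGram (RingEquiv.refl F) R G) {H : Subgroup (GL ι F)} (hH : GNorms H R) :
    (Fintype.card F).Prime ∨ FormC5 (RingEquiv.refl F) G H := by
  haveI : Nonempty ι := Fintype.card_pos_iff.1 (by omega)
  by_cases h0 : (⊥ : Subfield F) = ⊤
  · left
    obtain ⟨p, hp⟩ := CharP.exists F
    haveI : Fact p.Prime := ⟨CharP.char_is_prime F p⟩
    have := Subfield.card_bot F p
    rw [h0, Nat.card_congr Subfield.topEquiv.toEquiv, Nat.card_eq_fintype_card] at this
    rw [this]; exact Fact.out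
  · refine Or.inr (hG.formC5_of_fixes h.abs hH h0 (h.realisableOver _ fun c hc => ?_) hf)
    rcases sq_eq_one_iff.1 (show (c : F) ^ 2 = 1 by
      rw [← Units.val_pow_eq_pow_val, hf.sq_eq_one hG.unit hc, Units.val_one]) with h1 | h1 <;> rw [h1]
    exacts [one_mem _, Subfield.neg_mem _ (one_mem _)]

lemma card_eq_two [Finite F] (h : RData 2 R) (hn : 2 ≤ Fintype.card ι) (hG : IsUnit G)
    (hf : FixesGram (RingEquiv.refl F) R G) {k : ℕ} (hk : Fintype.card ι = 2 ^ k) : Nat.card R = 2 ^ (1 + 2 * k) := by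
  haveI : Nonempty ι := Fintype.card_pos_iff.1 (by omega)
  rw [h.card_eq, h.card_center_two hn hG hf, hk]; ring

end RData

/-- unitary class 6 -/
def UniC6 [Fintype F] (σ : F ≃+* F) (G : Matrix ι ι F) (H : Subgroup (GL ι F)) : Prop :=
  ∃ (r : ℕ) (R : Subgroup (GL ι F)) (p e k : ℕ), IsSymplecticTypeGroup r R ∧
    ActsAbsolutelyIrreducibly (matrixSet R) ∧ R ≤ similarityGroup (gf σ G) ∧ r ≠ p ∧
    IsMinimalFieldFor (Nat.card (Subgroup.center R)) p e F ∧
    ((Odd r ∧ Nat.card (Subgroup.center R) = r ∧ 1 ≤ k ∧ Nat.card R = r ^ (1 + 2 * k)) ∨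
     (r = 2 ∧ e = 2 ∧ Nat.card (Subgroup.center R) = 4 ∧ Nat.card R = 2 ^ (2 + 2 * k))) ∧
    H ≤ subgroupNormalizer R ∧ RData r R ∧ Fintype.card ι = r ^ k ∧ (Odd r → FixesGram σ R G)

lemma mult_pow [Nonempty ι] {σ : F ≃+* F} {G : Matrix ι ι F} (hG : IsUnit G) {x : GL ι F} {c : F}
    (hc : adj σ G (x : Matrix ι ι F) = c • ((x⁻¹ : GL ι F) : Matrix ι ι F)) {z : ℕ} (hx : x ^ z = 1) : c ^ z = 1 := by
  have := adj_pow (σ := σ) hG (x : Matrix ι ι F) z
  rw [hc, smul_pow, ← Units.val_pow_eq_pow_val, ← Units.val_pow_eq_pow_val, inv_pow, hx, inv_one, Units.val_one,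
    adj_one hG] at this
  exact (smul_one_injective (ι := ι) ((one_smul F _).trans this)).symm

lemma RSat.uni [Fintype F] {σ : F ≃+* F} {G : Matrix ι ι F} (hG : Herm σ 1 G) (hne : σ ≠ RingEquiv.refl F) {r : ℕ}
    {N R H : Subgroup (GL ι F)} (h : RSat r N R) (hs : N ≤ similarityGroup (gf σ G)) (hn : 3 ≤ Fintype.card ι)
    (hN : GNorms H N) : FormC5 σ G H ∨ UniC6 σ G H := by
  haveI : Nonempty ι := Fintype.card_pos_iff.1 (by omega)
  have hR := h.norm H hN
  have hRs : R ≤ similarityGroup (gf σ G) := h.le.trans (sup_le hs scalars_le_similarityGroup)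
  obtain ⟨m, hm⟩ := h.data.exists_card_eq_pow
  have hm1 : 1 ≤ m := by
    rcases m with _ | m
    · rw [pow_zero] at hm; omega
    · omega
  have hst := h.data.isSymplecticTypeGroup hn h.exp
  have hr0 := h.data.cast_ne_zero (by omega)
  have hq := card_eq_card_fixSub_sq hG.invol hne
  have hsub : ∀ {z : ℕ}, z = r * Nat.gcd 2 r → ∀ F₀ : Subfield F, F₀ ≠ ⊤ → (∀ c : F, c ^ z = 1 → c ∈ F₀) →
      FormC5 σ G H := fun hz F₀ h0 h1 =>
    hG.formC5 h.data.abs hR h0 (h.data.realisableOver F₀ fun c hc => h1 _ (by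
      rw [hz, ← Units.val_pow_eq_pow_val, (h.sat c).1 hc, Units.val_one])) fun x hx => by
      obtain ⟨c, hc⟩ := mem_similarityGroup_gf.1 (hRs hx)
      exact ⟨_, h1 _ (hz ▸ mult_pow hG.unit (adj_of_sim hG.unit hc) (h.exp x hx)), adj_of_sim hG.unit hc⟩
  rcases h.data.prime.eq_two_or_odd' with rfl | hodd
  · have h2 : (2 : F) ≠ 0 := by exact_mod_cast hr0
    obtain ⟨i, hi⟩ : IsSquare (-1 : F) := by
      rw [FiniteField.isSquare_neg_one_iff, hq, sq, Nat.mul_mod]
      generalize Nat.card (fixSub σ) = a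
      have : a % 4 < 4 := Nat.mod_lt _ (by norm_num)
      interval_cases a % 4 <;> norm_num
    have hprim := isPrimitiveRoot_four h2 hi.symm
    have hc := h.data.card_center (by norm_num) h.sat hprim
    rcases minimal_or_subfield (dvd_card_sub_one (by norm_num) hprim) with ⟨p, e, hmin⟩ | ⟨F₀, h0, h1⟩
    · rcases minimal_four hmin with ⟨rfl, hp⟩ | ⟨rfl, hp⟩
      · exfalso
        have := hmin.1
        rw [← pow_one p, ← hmin.2.2.1, hq, sq] at this
        exact Nat.not_prime_mul Finite.one_lt_card.ne' Finite.one_lt_card.ne' this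
      · haveI := hmin.2.1
        refine Or.inr ⟨2, R, p, 2, m, hst, h.data.abs.acts, hRs, ne_of_cast_ne_zero hr0, by rw [hc]; exact hmin,
          Or.inr ⟨rfl, rfl, hc, ?_⟩, hR.le_normalizer, h.data, hm, fun h => absurd h (by decide)⟩
        rw [h.data.card_eq, hc, hm]; simp only [Nat.gcd_self]; ring
    · exact Or.inl (hsub rfl F₀ h0 h1)
  · have e1 : r * Nat.gcd 2 r = r := by
      rw [Nat.Coprime.gcd_eq_one (Nat.coprime_two_left.2 hodd), mul_one]
    obtain ⟨x, hx, y, hy, ζ, k1, k2, k3⟩ := h.data.exists_root (by omega)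
    have hζ := RData.isPrimitiveRoot_of_ne_one h.data.prime k1 k2
    have hc := h.data.card_center h.data.prime.ne_zero (by simpa only [e1] using h.sat) hζ
    rcases minimal_or_subfield (dvd_card_sub_one h.data.prime.ne_zero hζ) with ⟨p, e, hmin⟩ | ⟨F₀, h0, h1⟩
    · haveI := hmin.2.1
      refine Or.inr ⟨r, R, p, e, m, hst, h.data.abs.acts, hRs, ne_of_cast_ne_zero hr0, by rw [hc]; exact hmin,
          Or.inl ⟨hodd, hc, hm1, ?_⟩, hR.le_normalizer, h.data, hm, fun _ g hg => ?_⟩
      · rw [h.data.card_eq, hc, hm]; ring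
      · obtain ⟨c, hc⟩ := mem_similarityGroup_gf.1 (hRs hg)
        have h3 := mult_pow hG.unit (adj_of_sim hG.unit hc) (h.exp g hg)
        rw [e1, hG.symm_eq] at h3
        have h4 : σ c = c := by
          have := congrArg (fun x : Matrix ι ι F => (x.map σ)ᵀ) hc
          simp only [map_mul_equiv, map_smul_equiv, Matrix.transpose_mul, Matrix.transpose_smul, hG.star, one_smul,
            map_map_invol hG.invol] at this
          rw [← Matrix.transpose_map, Matrix.transpose_transpose, ← mul_assoc, hc] at this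
          exact (smul_left_injective F hG.unit.ne_zero this).symm
        rw [h4] at h3
        haveI : NeZero r := ⟨h.data.prime.ne_zero⟩
        obtain ⟨j, -, hj⟩ := hζ.eq_pow_of_pow_eq_one h3
        have h5 := twist_adj hG.unit (hRs hx) (hRs hy) k3
        have h6 : (c : F) ^ 2 = 1 := by
          rw [sq]
          nth_rewrite 2 [← h4]
          rw [← hj, map_pow, ← mul_pow, ← hG.symm_eq, h5, one_pow]
        have h7 : (c : F) = 1 := by
          obtain ⟨l, rfl⟩ := hodd
          rwa [pow_succ, pow_mul, h6, one_pow, one_mul] at h3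
        rw [hc, h7, one_smul]
    · exact Or.inl (hsub e1.symm F₀ h0 h1)

end Cfsg.Agent.Asch
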