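import Cfsg.Agent.Asch.Perp

/-! Commutative algebras closed under adjoints: the extension-field case relative to a form. -/

set_option autoImplicit false
set_option linter.unusedSimpArgs false
set_option linter.unusedSectionVars false

namespace Cfsg.Agent.Asch

open scoped MatrixGroups Matrix Kronecker
open Cfsg Cfsg.Geo

/-- a finite field has at most one automorphism of order two -/
lemma invol_unique {E : Type*} [Field E] [Finite E] {τ ρ : E ≃+* E} (hτ : ∀ a, τ (τ a) = a) (hρ : ∀ a, ρ (ρ a) = a)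
    (h1 : τ ≠ RingEquiv.refl E) (h2 : ρ ≠ RingEquiv.refl E) : τ = ρ := by
  classical
  obtain ⟨p, hp⟩ := CharP.exists E
  haveI : Fact p.Prime := ⟨CharP.char_is_prime E p⟩
  letI : Algebra (ZMod p) E := ZMod.algebra E p
  let c : (E ≃+* E) → (E ≃ₐ[ZMod p] E) := fun σ => AlgEquiv.ofRingEquiv (f := σ) (fun x =>
    DFunLike.congr_fun (RingHom.ext_zmod ((σ : E →+* E).comp (algebraMap (ZMod p) E)) (algebraMap (ZMod p) E)) x)
  have hc : Function.Injective c := fun a b h => RingEquiv.ext fun x => DFunLike.congr_fun h x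
  haveI := Fintype.ofFinite (E ≃ₐ[ZMod p] E)
  have h3 := IsCyclic.card_pow_eq_one_le (α := E ≃ₐ[ZMod p] E) (n := 2) (by norm_num)
  by_contra hne
  have : ({c (RingEquiv.refl E), c τ, c ρ} : Finset (E ≃ₐ[ZMod p] E)) ⊆ Finset.univ.filter fun a => a ^ 2 = 1 := by
    intro a ha
    simp only [Finset.mem_insert, Finset.mem_singleton] at ha
    rw [Finset.mem_filter, sq]
    refine ⟨Finset.mem_univ _, ?_⟩
    rcases ha with rfl | rfl | rfl
    · rfl
    · exact AlgEquiv.ext hτ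
    · exact AlgEquiv.ext hρ
  have h4 := Finset.card_le_card this
  rw [Finset.card_eq_three.2 ⟨_, _, _, hc.ne h1.symm, hc.ne h2.symm, hc.ne hne, rfl⟩] at h4
  omega

variable {ι : Type} [Fintype ι] [DecidableEq ι] {F : Type*} [Field F]

lemma natCard_fieldSubalgebra [Fintype F] {r : ℕ} {K : Subalgebra F (Matrix ι ι F)} (hK : IsFieldSubalgebra r K) :
    Nat.card K = Fintype.card F ^ r := by
  rw [Module.natCard_eq_pow_finrank (K := F), hK.finrank_eq, Nat.card_eq_fintype_card]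

/-- the adjoint as an automorphism of a commutative algebra closed under adjoints -/
noncomputable def adjEquiv {σ : F ≃+* F} {ε : F} {G : Matrix ι ι F} (hG : Herm σ ε G) {K : Subalgebra F (Matrix ι ι F)}
    (hc : ∀ x ∈ K, ∀ y ∈ K, x * y = y * x) (hst : StarC σ G K) : K ≃+* K where
  toFun x := ⟨adj σ G x, hst x x.2⟩
  invFun x := ⟨adj σ G x, hst x x.2⟩
  left_inv x := Subtype.ext (hG.adj_adj x)
  right_inv x := Subtype.ext (hG.adj_adj x)
  map_mul' x y := Subtype.ext (by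
    change adj σ G (x * y) = adj σ G x * adj σ G y
    rw [hc _ x.2 _ y.2, adj_mul hG.unit])
  map_add' x y := Subtype.ext (adj_add _ _)

lemma Herm.not_field_two [Fintype F] [Nonempty ι] {σ : F ≃+* F} {ε : F} {G : Matrix ι ι F} (hG : Herm σ ε G)
    (hne : σ ≠ RingEquiv.refl F) {K : Subalgebra F (Matrix ι ι F)} (hK : IsFieldSubalgebra 2 K) (hst : StarC σ G K) :
    False := by
  letI : Field K := (isField_of_inv hK.comm hK.inv).toField
  haveI := Fintype.ofFinite K
  have hcard : Fintype.card K = Fintype.card F ^ 2 := by rw [← natCard_fieldSubalgebra hK, Nat.card_eq_fintype_card]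
  obtain ⟨a, ha⟩ := exists_ne_of_ne_refl hne
  have h1 : 1 < Fintype.card F := Fintype.one_lt_card
  have h2 : ((adjEquiv hG hK.comm hst (algebraMap F K a) : K) : Matrix ι ι F) = σ a • 1 := by
    change adj σ G (algebraMap F _ a) = _
    rw [Algebra.algebraMap_eq_smul_one, adj_smul_one hG.unit, hG.symm_eq]
  have h3 : adjEquiv hG hK.comm hst (algebraMap F K a) ≠ algebraMap F K a := fun h => by
    rw [h] at h2
    change algebraMap F (Matrix ι ι F) a = _ at h2
    rw [Algebra.algebraMap_eq_smul_one] at h2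
    exact ha (smul_one_injective h2).symm
  have := invol_unique (τ := adjEquiv hG hK.comm hst) (ρ := (FiniteField.frobeniusAlgEquivOfAlgebraic F K).toRingEquiv)
    (fun x => Subtype.ext (hG.adj_adj x)) (fun x => by
      change (x ^ Fintype.card F) ^ Fintype.card F = x
      rw [← pow_mul, ← sq, ← hcard, FiniteField.pow_card]) (fun h => h3 (by rw [h]; rfl)) (fun h => by
      obtain ⟨x, hx⟩ := exists_pow_ne_self (F := K) h1 (by rw [hcard]; nlinarith)
      exact hx (DFunLike.congr_fun h x))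
  exact h3 (by rw [this]; exact (FiniteField.frobeniusAlgEquivOfAlgebraic F K).commutes a)

/-- a normalised self-adjoint field of prime degree, not a Singer field -/
def SAField (G : Matrix ι ι F) (H : Subgroup (GL ι F)) : Prop :=
  ∃ (r : ℕ) (K : Subalgebra F (Matrix ι ι F)), r.Prime ∧ r ≠ Fintype.card ι ∧ IsFieldSubalgebra r K ∧
    Norms H (K : Set (Matrix ι ι F)) ∧ ∀ k ∈ K, adj (RingEquiv.refl F) G k = k

/-- a normalised quadratic field of unitary type -/
def UField (G : Matrix ι ι F) (H : Subgroup (GL ι F)) : Prop :=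
  ∃ K : Subalgebra F (Matrix ι ι F), IsFieldSubalgebra 2 K ∧ Norms H (K : Set (Matrix ι ι F)) ∧
    StarC (RingEquiv.refl F) G K ∧ ¬ ∀ k ∈ K, adj (RingEquiv.refl F) G k = k

/-- a normalised field of odd prime degree closed under adjoints -/
def OddField (σ : F ≃+* F) (G : Matrix ι ι F) (H : Subgroup (GL ι F)) : Prop :=
  ∃ (r : ℕ) (K : Subalgebra F (Matrix ι ι F)), r.Prime ∧ Odd r ∧ IsFieldSubalgebra r K ∧
    Norms H (K : Set (Matrix ι ι F)) ∧ StarC σ G K

lemma Herm.oddField [Fintype F] [Nonempty ι] {σ : F ≃+* F} {ε : F} {G : Matrix ι ι F} (hG : Herm σ ε G)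
    (hne : σ ≠ RingEquiv.refl F) {H : Subgroup (GL ι F)} {K : Subalgebra F (Matrix ι ι F)}
    (hK : Norms H (K : Set (Matrix ι ι F))) (hc : ∀ x ∈ K, ∀ y ∈ K, x * y = y * x)
    (hinv : ∀ x ∈ K, x ≠ 0 → ∃ y ∈ K, x * y = 1) (hst : StarC σ G K) (hns : ∃ z ∈ K, ∀ c : F, z ≠ c • 1) :
    OddField σ G H := by
  obtain ⟨r, hr, hdvd⟩ := exists_prime_dvd_finrank hns
  obtain ⟨K', h1, h2, h3⟩ := exists_prime_field_of_norms hK hc hinv r hr.pos hdvd
  have h4 : StarC σ G K' := fun x hx =>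
    (h3 _).2 ⟨hst x ((h3 x).1 hx).1, by rw [← adj_pow hG.unit, ((h3 x).1 hx).2]⟩
  refine ⟨r, K', hr, hr.eq_two_or_odd'.resolve_left ?_, h1, norms_of_le_subalgebraNormalizer h2, h4⟩
  rintro rfl
  exact hG.not_field_two hne h1 h4

/-- a field of degree the dimension is its own centraliser -/
lemma mem_of_comm_singer [Nonempty ι] {K : Subalgebra F (Matrix ι ι F)} (hK : IsFieldSubalgebra (Fintype.card ι) K)
    {g : Matrix ι ι F} (hg : ∀ k ∈ K, g * k = k * g) : g ∈ K := by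
  obtain ⟨i⟩ := ‹Nonempty ι›
  let T : K →ₗ[F] (ι → F) :=
    { toFun := fun k => (k : Matrix ι ι F) *ᵥ Pi.single i 1
      map_add' := fun a b => Matrix.add_mulVec _ _ _
      map_smul' := fun c a => Matrix.smul_mulVec _ _ _ }
  have hinj : Function.Injective T := by
    rw [injective_iff_map_eq_zero]
    intro k hk
    by_contra h0
    obtain ⟨y, hy, hy'⟩ := hK.inv k k.2 fun h => h0 (Subtype.ext h)
    have : (y * (k : Matrix ι ι F)) *ᵥ (Pi.single i 1 : ι → F) = 0 := by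
      rw [← Matrix.mulVec_mulVec]
      change y *ᵥ T k = 0
      rw [hk, Matrix.mulVec_zero]
    rw [hK.comm y hy k k.2, hy', Matrix.one_mulVec] at this
    simpa using congrFun this i
  have hsurj : Function.Surjective T := (LinearMap.injective_iff_surjective_of_finrank_eq_finrank (by
    rw [hK.finrank_eq, Module.finrank_fintype_fun_eq_card])).1 hinj
  obtain ⟨k, hk⟩ := hsurj (g *ᵥ Pi.single i 1)
  have : g = k := Matrix.ext_of_mulVec_single (fun j => ?_)
  · rw [this]; exact k.2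
  obtain ⟨a, ha⟩ := hsurj (Pi.single j 1)
  rw [← ha]
  change g *ᵥ (a : Matrix ι ι F) *ᵥ _ = (k : Matrix ι ι F) *ᵥ (a : Matrix ι ι F) *ᵥ _
  rw [Matrix.mulVec_mulVec, Matrix.mulVec_mulVec, hg a a.2, hK.comm k k.2 a a.2, ← Matrix.mulVec_mulVec,
    ← Matrix.mulVec_mulVec]
  exact congrArg _ hk.symm

lemma eq_or_eq_of_mul_sub {K : Subalgebra F (Matrix ι ι F)} (hc : ∀ x ∈ K, ∀ y ∈ K, x * y = y * x)
    (hinv : ∀ x ∈ K, x ≠ 0 → ∃ y ∈ K, x * y = 1) {x a b : Matrix ι ι F} (hx : x ∈ K) (ha : a ∈ K)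
    (h : (x - a) * (x - b) = 0) : x = a ∨ x = b := by
  by_cases h0 : x - a = 0
  · exact Or.inl (sub_eq_zero.1 h0)
  · obtain ⟨y, hy, hy'⟩ := hinv _ (K.sub_mem hx ha) h0
    right
    rw [← sub_eq_zero, ← one_mul (x - b), ← hy', hc _ (K.sub_mem hx ha) y hy, mul_assoc, h, mul_zero]

lemma Herm.field_cases [Fintype F] [Nonempty ι] {ε : F} {G : Matrix ι ι F} (hG : Herm (RingEquiv.refl F) ε G)
    {H : Subgroup (GL ι F)} (hs : H ≤ similarityGroup (gf (RingEquiv.refl F) G)) {K : Subalgebra F (Matrix ι ι F)}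
    (hK : Norms H (K : Set (Matrix ι ι F))) (hc : ∀ x ∈ K, ∀ y ∈ K, x * y = y * x)
    (hinv : ∀ x ∈ K, x ≠ 0 → ∃ y ∈ K, x * y = 1) (hst : StarC (RingEquiv.refl F) G K)
    (hns : ∃ z ∈ K, ∀ c : F, z ≠ c • 1)
    (hx : (Fintype.card ι).Prime → ∃ g : GL ι F, g ∉ scalars ι F ∧ adj (RingEquiv.refl F) G g = (g⁻¹ : GL ι F) ∧
      ∀ k ∈ K, (g : Matrix ι ι F) * k = k * g) :
    SAField G H ∨ UField G H := by
  let K₀ : Subalgebra F (Matrix ι ι F) :=
    { carrier := {k | k ∈ K ∧ adj (RingEquiv.refl F) G k = k}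
      mul_mem' := fun {a b} ha hb => ⟨K.mul_mem ha.1 hb.1, by rw [adj_mul hG.unit, ha.2, hb.2, hc a ha.1 b hb.1]⟩
      add_mem' := fun {a b} ha hb => ⟨K.add_mem ha.1 hb.1, by rw [adj_add, ha.2, hb.2]⟩
      algebraMap_mem' := fun c => ⟨K.algebraMap_mem c, by
        rw [Algebra.algebraMap_eq_smul_one, adj_smul_one hG.unit]; rfl⟩ }
  have hinv0 : ∀ x ∈ K₀, x ≠ 0 → ∃ y ∈ K₀, x * y = 1 := fun x hx h0 => by
    obtain ⟨y, hy, hxy⟩ := hinv x hx.1 h0
    refine ⟨y, ⟨hy, ?_⟩, hxy⟩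
    have := congrArg (adj (RingEquiv.refl F) G) hxy
    rw [adj_mul hG.unit, adj_one hG.unit, hx.2] at this
    rw [← mul_one (adj _ G y), ← hxy, ← mul_assoc, this, one_mul]
  by_cases h0 : ∃ z ∈ K₀, ∀ c : F, z ≠ c • 1
  · left
    obtain ⟨r, hr, hdvd⟩ := exists_prime_dvd_finrank h0
    obtain ⟨K', h1, h2, h3⟩ := exists_prime_field_of_norms (H := H) (K := K₀)
      (fun h hh x hx => ⟨hK h hh x hx.1, by rw [adj_cj hG.unit (hs hh), hx.2]⟩)
      (fun x hx y hy => hc x hx.1 y hy.1) hinv0 r hr.pos hdvd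
    refine ⟨r, K', hr, ?_, h1, norms_of_le_subalgebraNormalizer h2, fun k hk => ((h3 k).1 hk).1.2⟩
    rintro rfl
    obtain ⟨g, hg1, hg2, hg3⟩ := hx hr
    have hg := mem_of_comm_singer h1 fun k hk => hg3 k ((h3 k).1 hk).1.1
    rw [((h3 _).1 hg).1.2] at hg2
    have h4 : (g : Matrix ι ι F) * g = 1 := by
      nth_rewrite 2 [hg2]
      exact g.mul_inv
    rcases eq_or_eq_of_mul_sub h1.comm h1.inv hg K'.one_mem (b := -1) (by noncomm_ring [h4]) with h | h
    · exact hg1 (mem_scalars_of_eq_smul (c := 1) (by rw [h, one_smul]))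
    · exact hg1 (mem_scalars_of_eq_smul (c := -1) (by rw [h, neg_one_smul]))
  right
  push Not at h0
  obtain ⟨z, hz, hz'⟩ := hns
  have hz0 : adj (RingEquiv.refl F) G z ≠ z := fun h => by
    obtain ⟨c, hc⟩ := h0 z ⟨hz, h⟩
    exact hz' c hc
  refine ⟨K, ⟨hc, hinv, ?_⟩, hK, hst, fun h => hz0 (h z hz)⟩
  obtain ⟨δ, hδ, hδ'⟩ := hinv _ (K.sub_mem hz (hst z hz)) (sub_ne_zero.2 hz0.symm)
  have hδ2 : adj (RingEquiv.refl F) G δ = -δ := by
    have := congrArg (adj (RingEquiv.refl F) G) hδ'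
    rw [adj_mul hG.unit, adj_one hG.unit, adj_sub, hG.adj_adj] at this
    rw [← mul_one (adj _ G δ), ← hδ', ← mul_assoc, ← neg_sub, mul_neg, this, neg_mul, one_mul]
  have hspan : ∀ x ∈ K, ∃ c d : F, x = c • 1 + d • z := fun x hx => by
    have hy := K.sub_mem hx (hst x hx)
    obtain ⟨d, hd⟩ := h0 ((x - adj (RingEquiv.refl F) G x) * δ) ⟨K.mul_mem hy hδ, by
      rw [adj_mul hG.unit, hδ2, adj_sub, hG.adj_adj, ← neg_sub x, neg_mul_neg, hc δ hδ _ hy]⟩
    have h1 : x - adj (RingEquiv.refl F) G x = d • (z - adj (RingEquiv.refl F) G z) := by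
      rw [← one_mul (z - _), ← smul_mul_assoc, ← hd, mul_assoc, hc δ hδ _ (K.sub_mem hz (hst z hz)), hδ', mul_one]
    obtain ⟨c, hc⟩ := h0 (x - d • z) ⟨K.sub_mem hx (K.smul_mem hz d), by
      rw [adj_sub, adj_smul]
      change _ - d • _ = _
      rw [smul_sub] at h1
      linear_combination (norm := abel) -h1⟩
    exact ⟨c, d, by rw [← hc, sub_add_cancel]⟩
  have hli : LinearIndependent F ![(1 : Matrix ι ι F), z] := by
    rw [LinearIndependent.pair_iff' one_ne_zero]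
    exact fun c h => hz' c h.symm
  have : K.toSubmodule = Submodule.span F (Set.range ![(1 : Matrix ι ι F), z]) := by
    apply le_antisymm
    · intro x hx
      obtain ⟨c, d, rfl⟩ := hspan x hx
      exact Submodule.add_mem _ (Submodule.smul_mem _ _ (Submodule.subset_span ⟨0, rfl⟩))
        (Submodule.smul_mem _ _ (Submodule.subset_span ⟨1, rfl⟩))
    · rw [Submodule.span_le]
      rintro _ ⟨i, rfl⟩
      fin_cases i
      exacts [K.one_mem, hz]
  change Module.finrank F K.toSubmodule = 2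
  rw [this, finrank_span_eq_card hli, Fintype.card_fin]

/-- outcome of a normalised non-scalar commutative algebra closed under adjoints -/
def CommCase (σ : F ≃+* F) (G : Matrix ι ι F) (H : Subgroup (GL ι F)) : Prop :=
  OrthDec σ G H ∨ IsoPair σ G H ∨ (σ = RingEquiv.refl F ∧ (SAField G H ∨ UField G H)) ∨
    (σ ≠ RingEquiv.refl F ∧ OddField σ G H)

lemma Herm.commCase [Fintype F] [Nonempty ι] {σ : F ≃+* F} {ε : F} {G : Matrix ι ι F} (hG : Herm σ ε G)
    {H : Subgroup (GL ι F)} (hH : Irred H) (hs : H ≤ similarityGroup (gf σ G)) {K : Subalgebra F (Matrix ι ι F)}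
    (hK : Norms H (K : Set (Matrix ι ι F))) (hc : ∀ x ∈ K, ∀ y ∈ K, x * y = y * x) (hst : StarC σ G K)
    (hns : ∃ z ∈ K, ∀ c : F, z ≠ c • 1)
    (hx : (Fintype.card ι).Prime → ∃ g : GL ι F, g ∉ scalars ι F ∧ adj σ G g = (g⁻¹ : GL ι F) ∧
      ∀ k ∈ K, (g : Matrix ι ι F) * k = k * g) : CommCase σ G H := by
  rcases hG.star_comm_cases hH hs hK hc hst with hinv | h | h
  · by_cases hσ : σ = RingEquiv.refl F
    · subst hσ
      exact Or.inr (Or.inr (Or.inl ⟨rfl, hG.field_cases hs hK hc hinv hst hns hx⟩))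
    · exact Or.inr (Or.inr (Or.inr ⟨hσ, hG.oddField hσ hK hc hinv hst hns⟩))
  · exact Or.inl h
  · exact Or.inr (Or.inl h)

/-- for an alternating form a self-adjoint field is of symplectic type -/
lemma sa_alt [Finite F] [Nonempty ι] {G : Matrix ι ι F} (hG : IsUnit G) (h : Gᵀ = -G)
    (halt : ∀ v, gf (RingEquiv.refl F) G v v = 0) {r : ℕ} {K : Subalgebra F (Matrix ι ι F)}
    (hK : IsFieldSubalgebra r K) (hsa : ∀ k ∈ K, adj (RingEquiv.refl F) G k = k) {k : Matrix ι ι F} (hk : k ∈ K)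
    (v : ι → F) : gf (RingEquiv.refl F) G (k *ᵥ v) v = 0 := by
  by_cases h2 : (2 : F) = 0
  · letI : Field K := (isField_of_inv hK.comm hK.inv).toField
    obtain ⟨a, ha⟩ := exists_sq_of_two_eq_zero (F := K) (by
      rw [← map_ofNat (algebraMap F K) 2, h2, map_zero]) ⟨k, hk⟩
    have : (a : Matrix ι ι F) * a = k := congrArg Subtype.val ha
    rw [← this, ← Matrix.mulVec_mulVec, gf_adj hG, hsa a a.2, halt]
  · have := gf_skew h (k *ᵥ v) v
    rw [← hsa k hk, ← gf_adj hG, hsa k hk] at this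
    exact mul_left_cancel₀ h2 (by linear_combination this)

lemma exists_comb_of_finrank_two [Nonempty ι] {K : Subalgebra F (Matrix ι ι F)} (hK : Module.finrank F K = 2)
    {z : Matrix ι ι F} (hz : z ∈ K) (hz' : ∀ c : F, z ≠ c • 1) {x : Matrix ι ι F} (hx : x ∈ K) :
    ∃ c d : F, x = c • 1 + d • z := by
  have hli : LinearIndependent F ![(1 : Matrix ι ι F), z] := by
    rw [LinearIndependent.pair_iff' one_ne_zero]
    exact fun c h => hz' c h.symm
  have : Submodule.span F (Set.range ![(1 : Matrix ι ι F), z]) = K.toSubmodule := by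
    apply Submodule.eq_of_le_of_finrank_eq
    · rw [Submodule.span_le]
      rintro _ ⟨i, rfl⟩
      fin_cases i
      exacts [K.one_mem, hz]
    · rw [finrank_span_eq_card hli, Fintype.card_fin]; exact hK.symm
  have hx' : x ∈ Submodule.span F (Set.range ![(1 : Matrix ι ι F), z]) := this ▸ hx
  obtain ⟨c, hc⟩ := (Submodule.mem_span_range_iff_exists_fun F).1 hx'
  exact ⟨c 0, c 1, by rw [← hc, Fin.sum_univ_two]; rfl⟩

/-- in a quadratic field of unitary type the self-adjoint elements are the scalars -/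
lemma scalar_of_sa [Nonempty ι] {G : Matrix ι ι F} (hG : IsUnit G) {K : Subalgebra F (Matrix ι ι F)}
    (hK : IsFieldSubalgebra 2 K) (hns : ¬ ∀ k ∈ K, adj (RingEquiv.refl F) G k = k) {z : Matrix ι ι F} (hz : z ∈ K)
    (hz' : adj (RingEquiv.refl F) G z = z) : ∃ c : F, z = c • 1 := by
  by_contra! h
  refine hns fun k hk => ?_
  obtain ⟨c, d, rfl⟩ := exists_comb_of_finrank_two hK.finrank_eq hz h hk
  rw [adj_add, adj_smul, adj_smul, adj_one hG, hz']
  rfl

lemma exists_omega [Nonempty ι] (h2 : (2 : F) = 0) {ε : F} {G : Matrix ι ι F} (hG : Herm (RingEquiv.refl F) ε G)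
    {H : Subgroup (GL ι F)} {K : Subalgebra F (Matrix ι ι F)} (hK : IsFieldSubalgebra 2 K)
    (hN : Norms H (K : Set (Matrix ι ι F))) (hst : StarC (RingEquiv.refl F) G K)
    (hns : ¬ ∀ k ∈ K, adj (RingEquiv.refl F) G k = k) :
    ∃ ω ∈ K, ω + adj (RingEquiv.refl F) G ω = 1 ∧ ∀ h ∈ H, cj h ω = ω ∨ cj h ω = adj (RingEquiv.refl F) G ω := by
  obtain ⟨z, hz, hz'⟩ : ∃ z ∈ K, adj (RingEquiv.refl F) G z ≠ z := by
    by_contra! h
    exact hns h
  obtain ⟨c, hc⟩ := scalar_of_sa hG.unit hK hns (K.add_mem hz (hst z hz)) (by rw [adj_add, hG.adj_adj, add_comm])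
  have hc0 : c ≠ 0 := by
    rintro rfl
    apply hz'
    rw [zero_smul] at hc
    have : z + z = 0 := by rw [← two_smul F z, h2, zero_smul]
    exact add_left_cancel (hc.trans this.symm)
  have h1 : c⁻¹ • z + adj (RingEquiv.refl F) G (c⁻¹ • z) = 1 := by
    rw [adj_smul]
    change c⁻¹ • z + c⁻¹ • _ = 1
    rw [← smul_add, hc, smul_smul, inv_mul_cancel₀ hc0, one_smul]
  have hω := K.smul_mem hz c⁻¹
  refine ⟨c⁻¹ • z, hω, h1, fun h hh => ?_⟩
  generalize c⁻¹ • z = ω at h1 hω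
  obtain ⟨d, hd⟩ := scalar_of_sa hG.unit hK hns (K.mul_mem hω (hst ω hω)) (by rw [adj_mul hG.unit, hG.adj_adj])
  refine eq_or_eq_of_mul_sub hK.comm hK.inv (hN h hh ω hω) hω ?_
  have h3 := congrArg (cj h) hd
  have h4 := congrArg (cj h) h1
  rw [map_mul, map_smul, map_one, ← hd] at h3
  rw [map_add, map_one] at h4
  have h5 := hK.comm _ hω _ (hN h hh ω hω)
  rw [eq_sub_of_add_eq' h4] at h3
  rw [eq_sub_of_add_eq' h1] at h3 ⊢
  simp only [mul_sub, sub_mul, mul_one] at h3 ⊢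
  rw [h5]
  linear_combination (norm := abel) -h3

/-- the quadratic form `f(ω v, v)` -/
lemma omega_quad {G : Matrix ι ι F} (hG : Herm (RingEquiv.refl F) 1 G)
    {H : Subgroup (GL ι F)} (hf : FixesGram (RingEquiv.refl F) H G) {ω : Matrix ι ι F}
    (h1 : ω + adj (RingEquiv.refl F) G ω = 1) (h3 : ∀ h ∈ H, cj h ω = ω ∨ cj h ω = adj (RingEquiv.refl F) G ω) :
    IsNondegenerateQuadraticForm (fun v => gf (RingEquiv.refl F) G (ω *ᵥ v) v) ∧
      QuadraticMap.polar (fun v => gf (RingEquiv.refl F) G (ω *ᵥ v) v) = gf (RingEquiv.refl F) G ∧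
      FixesQuadForm (matrixSet H) (fun v => gf (RingEquiv.refl F) G (ω *ᵥ v) v) := by
  have hp : QuadraticMap.polar (fun v => gf (RingEquiv.refl F) G (ω *ᵥ v) v) = gf (RingEquiv.refl F) G := by
    ext u v
    rw [QuadraticMap.polar, Matrix.mulVec_add, (sesq_gf _ G).add_left, (sesq_gf _ G).add_right, (sesq_gf _ G).add_right,
      gf_symm hG.transpose_one (ω *ᵥ v) u, hG.gf_adj']
    conv_rhs => rw [← Matrix.one_mulVec u, ← h1, Matrix.add_mulVec, (sesq_gf _ G).add_left]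
    ring
  refine ⟨⟨fun c v => ?_, by rw [hp]; exact (sesq_gf _ G).bilinear, by rw [hp]; exact hG.nondeg⟩, hp, ?_⟩
  · rw [Matrix.mulVec_smul, (sesq_gf _ G).smul_left, (sesq_gf _ G).smul_right, RingEquiv.refl_apply]; ring
  · rintro _ ⟨g, hg, rfl⟩ v
    change gf _ G (ω *ᵥ (g : Matrix ι ι F) *ᵥ v) _ = gf _ G (ω *ᵥ v) v
    conv_lhs => rw [← cj_cj_inv g ω, cj_mulVec, hf.gf_eq hg]
    rcases h3 _ (H.inv_mem hg) with h | h
    · rw [h]
    · rw [h, ← hG.gf_adj', gf_symm hG.transpose_one]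

end Cfsg.Agent.Asch
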