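import Cfsg.Agent.Asch.FormC6

/-! The subgroup structure theorem relative to a form: generic part. -/

set_option autoImplicit false
set_option linter.unusedSimpArgs false
set_option linter.unusedSectionVars false

namespace Cfsg.Agent.Asch

open scoped MatrixGroups Matrix Kronecker
open Cfsg Cfsg.Geo

variable {ι : Type} [Fintype ι] [DecidableEq ι] {F : Type*} [Field F]

theorem Herm.structure [Fintype F] {σ : F ≃+* F} {ε : F} {G : Matrix ι ι F} (hG : Herm σ ε G)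
    (hε : σ ≠ RingEquiv.refl F → ε = 1) {H : Subgroup (GL ι F)} (hH : Irred H) (hf : FixesGram σ H G)
    (hn : 2 ≤ Fintype.card ι) :
    CommCase σ G H ∨
    (∃ (a b : ℕ) (e : ι ≃ Fin a × Fin b) (P : GL ι F) (ε₁ ε₂ : F) (G₁ : Matrix (Fin a) (Fin a) F)
      (G₂ : Matrix (Fin b) (Fin b) F), TData σ ε G H e P ε₁ ε₂ G₁ G₂) ∨
    (∃ r N, MinN H N ∧ RData r N) ∨
    (∃ (m t : ℕ) (e : ι ≃ (Fin t → Fin m)) (P : GL ι F) (ε₀ : F) (G₀ : Matrix (Fin m) (Fin m) F)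
      (L : Subgroup (GL (Fin m) F)), PData σ G H e P ε₀ G₀ ∧ ⁅L, L⁆ = L ∧ AbsIrr L ∧
      L ≤ similarityGroup (gf σ G₀)) ∨
    FormC5 σ G H ∨ ∃ P, IsResidualCore H P ∧ AbsIrr P := by
  haveI : Nonempty ι := Fintype.card_pos_iff.1 (by omega)
  rcases hH.core hn with ⟨N, hle, hN, hns, hA⟩ | ⟨N, hN, hA, hc⟩ | hP | ⟨P, hle, hN, hP, hm, hA⟩
  · have hA' := hN.norms_spanAlg F
    have hst := starC_spanAlg hG.unit (hle.trans hf.le_sim)
    rcases hH.cent_or_tensor hA' (exists_nonscalar_of_not_le hns) (exists_not_mem_of_not_absIrr hA) with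
      h | ⟨a, b, e, P, ha, hb, h1, h2⟩
    · refine Or.inl (hG.commCase hH hf.le_sim hA'.cent (cent_comm _) (hst.cent hG) h fun _ => ?_)
      obtain ⟨g, hg, hg'⟩ := SetLike.not_le_iff_exists.1 hns
      exact ⟨g, hg', adj_of_fixes hG.unit (hf g (hle hg)), fun k hk => ((mem_cent.1 hk).2 _ (coe_mem_spanAlg hg)).symm⟩
    · exact Or.inr (Or.inl ⟨a, b, e, P, hG.exists_tData hε ha hb hst h1 h2⟩)
  · obtain ⟨r, hr⟩ := hN.exists_rData hA hc
    exact Or.inr (Or.inr (Or.inl ⟨r, N, hN, hr⟩))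
  · exact Or.inr (Or.inr (Or.inr (Or.inl (hP.pData hG hf.le_sim))))
  · by_cases hs : ∃ F₀ : Subfield F, F₀ ≠ ⊤ ∧ RealisableOver F₀ (matrixSet P)
    · obtain ⟨F₀, h0, h1⟩ := hs
      exact Or.inr (Or.inr (Or.inr (Or.inr (Or.inl (hG.formC5_of_fixes hA hN h0 h1 (hf.mono hle))))))
    push Not at hs
    exact Or.inr (Or.inr (Or.inr (Or.inr (Or.inr ⟨P, isResidualCore_of hle hN hP hm hA hs, hA⟩))))

lemma not_prime_of_equiv_pow {m t : ℕ} (e : ι ≃ (Fin t → Fin m)) (ht : 2 ≤ t) : ¬ (Fintype.card ι).Prime := by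
  rw [Fintype.card_congr e, Fintype.card_fun, Fintype.card_fin, Fintype.card_fin]
  exact Nat.Prime.not_prime_pow ht

/-- a tensor factor of prime dimension whose similarity group has no non-scalar perfect subgroup -/
lemma TData.right_cases [Fintype F] {σ : F ≃+* F} {ε : F} {G : Matrix ι ι F} {H : Subgroup (GL ι F)} {a b : ℕ}
    {e : ι ≃ Fin a × Fin b} {P : GL ι F} {ε₁ ε₂ : F} {G₁ : Matrix (Fin a) (Fin a) F} {G₂ : Matrix (Fin b) (Fin b) F}
    (h : TData σ ε G H e P ε₁ ε₂ G₁ G₂) (hH : Irred H) (hs : H ≤ similarityGroup (gf σ G)) (hb : b.Prime)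
    (hsolv : ∀ L ≤ similarityGroup (gf σ G₂), ⁅L, L⁆ = L → L = ⊥) :
    CommCase σ G H ∨ ∃ N R, RSat b N R ∧ N ≤ similarityGroup (gf σ G₂) ∧ GNorms (prj e P H) N := by
  haveI : Nonempty (Fin b) := ⟨⟨0, hb.pos⟩⟩
  have hI := h.prj_irred hH
  have hs' := h.prj_sim hs
  have hb2 : 2 ≤ Fintype.card (Fin b) := by simpa using hb.two_le
  have hb' : (Fintype.card (Fin b)).Prime := by simpa using hb
  rcases hI.core hb2 with ⟨N, hle, hN, hns, hA⟩ | ⟨N, hN, hA, hc⟩ | hP | ⟨Q, hle, hN, hP, hm, hA⟩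
  · have hA' := hN.norms_spanAlg F
    have hst := starC_spanAlg h.h₂.unit (hle.trans hs')
    rcases hI.cent_or_tensor hA' (exists_nonscalar_of_not_le hns) (exists_not_mem_of_not_absIrr hA) with
      h' | ⟨a, b, e, P, ha, hb, -⟩
    · exact Or.inl (h.commCase hH hs hA'.cent (cent_comm _) (hst.cent h.h₂) h')
    · exact absurd hb' (not_prime_of_equiv_prod e ha hb)
  · obtain ⟨r, hr⟩ := hN.exists_rData hA hc
    obtain ⟨R, hR⟩ := hN.exists_rSat hr hb2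
    obtain ⟨k, hk⟩ := hr.exists_card_eq_pow
    rw [Fintype.card_fin] at hk
    obtain rfl : r = b := by
      rw [hk] at hb
      rw [hk, hb.eq_one_of_pow, pow_one]
    exact Or.inr ⟨N, R, hR, hN.le.trans hs', hN.norm⟩
  · obtain ⟨m, t, e, -, -, -, -, -, -, ht, -⟩ := hP
    exact absurd hb' (not_prime_of_equiv_pow e ht)
  · exact absurd (hsolv Q (hle.trans hs') hP ▸ bot_le) hm.ns

/-- the tensor product of two subgroups -/
def kronSub {a b : ℕ} (e : ι ≃ Fin a × Fin b) (P : GL ι F) (R₁ : Subgroup (GL (Fin a) F))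
    (R₂ : Subgroup (GL (Fin b) F)) : Subgroup (GL ι F) :=
  (R₁.prod R₂).map ((trGL e P).toMonoidHom.comp kronGL)

lemma mem_kronSub {a b : ℕ} {e : ι ≃ Fin a × Fin b} {P : GL ι F} {R₁ : Subgroup (GL (Fin a) F)}
    {R₂ : Subgroup (GL (Fin b) F)} {g : GL ι F} :
    g ∈ kronSub e P R₁ R₂ ↔ ∃ x ∈ R₁, ∃ y ∈ R₂, trGL e P (kronGL (x, y)) = g :=
  ⟨by rintro ⟨⟨x, y⟩, ⟨h1, h2⟩, rfl⟩; exact ⟨x, h1, y, h2, rfl⟩, by
    rintro ⟨x, h1, y, h2, rfl⟩; exact ⟨(x, y), ⟨h1, h2⟩, rfl⟩⟩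

lemma AbsIrr.kronSub {a b : ℕ} (e : ι ≃ Fin a × Fin b) (P : GL ι F) {R₁ : Subgroup (GL (Fin a) F)}
    {R₂ : Subgroup (GL (Fin b) F)} (h1 : AbsIrr R₁) (h2 : AbsIrr R₂) : AbsIrr (kronSub e P R₁ R₂) := by
  have k1 : ∀ x, tr e P (lk (Fin b) x) ∈ spanAlg F (Asch.kronSub e P R₁ R₂) := fun x =>
    spanAlg_induction (p := fun x => tr e P (lk (Fin b) x) ∈ spanAlg F (Asch.kronSub e P R₁ R₂))
      (fun x hx => coe_mem_spanAlg (mem_kronSub.2 ⟨x, hx, 1, R₂.one_mem, rfl⟩)) (by simp)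
      (fun x y hx hy => by rw [map_add, map_add]; exact add_mem hx hy)
      (fun c x hx => by rw [map_smul, map_smul]; exact Subalgebra.smul_mem _ hx c) (h1 x)
  have k2 : ∀ x, tr e P (rk (Fin a) x) ∈ spanAlg F (Asch.kronSub e P R₁ R₂) := fun x =>
    spanAlg_induction (p := fun x => tr e P (rk (Fin a) x) ∈ spanAlg F (Asch.kronSub e P R₁ R₂))
      (fun x hx => coe_mem_spanAlg (mem_kronSub.2 ⟨1, R₁.one_mem, x, hx, rfl⟩)) (by simp)
      (fun x y hx hy => by rw [map_add, map_add]; exact add_mem hx hy)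
      (fun c x hx => by rw [map_smul, map_smul]; exact Subalgebra.smul_mem _ hx c) (h2 x)
  intro z
  obtain ⟨z, rfl⟩ := (tr e P).surjective z
  rw [← sum_smul_single z, map_sum]
  refine sum_mem fun ⟨i, j⟩ _ => ?_
  rw [map_sum]
  refine sum_mem fun ⟨k, l⟩ _ => ?_
  rw [map_smul, ← one_mul (1 : F), ← Matrix.single_kronecker_single, ← lk_mul_rk, map_mul]
  exact Subalgebra.smul_mem _ (mul_mem (k1 _) (k2 _)) _

lemma RData.kronSub {a b r : ℕ} (e : ι ≃ Fin a × Fin b) (P : GL ι F) {R₁ : Subgroup (GL (Fin a) F)}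
    {R₂ : Subgroup (GL (Fin b) F)} (h1 : RData r R₁) (h2 : RData r R₂) : RData r (kronSub e P R₁ R₂) where
  prime := h1.prime
  abs := h1.abs.kronSub e P h2.abs
  comm g hg g' hg' := by
    obtain ⟨x, hx, y, hy, rfl⟩ := mem_kronSub.1 hg
    obtain ⟨x', hx', y', hy', rfl⟩ := mem_kronSub.1 hg'
    obtain ⟨c, hc⟩ := h1.comm x hx x' hx'
    obtain ⟨d, hd⟩ := h2.comm y hy y' hy'
    refine ⟨c * d, ?_⟩
    rw [coe_trGL, coe_trGL, ← map_mul, ← map_mul, ← map_smul, coe_kronGL, coe_kronGL, ← Matrix.mul_kronecker_mul,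
      ← Matrix.mul_kronecker_mul, hc, hd, Matrix.smul_kronecker, Matrix.kronecker_smul, smul_smul]
  pow g hg := by
    obtain ⟨x, hx, y, hy, rfl⟩ := mem_kronSub.1 hg
    obtain ⟨c, hc⟩ := (mem_scalars_iff _).1 (h1.pow x hx)
    obtain ⟨d, hd⟩ := (mem_scalars_iff _).1 (h2.pow y hy)
    refine mem_scalars_of_eq_smul (c := c * d) ?_
    rw [← map_pow, ← map_pow, Prod.pow_mk, coe_trGL, coe_kronGL, hc, hd, Matrix.smul_kronecker, Matrix.kronecker_smul,
      smul_smul, Matrix.one_kronecker_one, map_smul, map_one]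

lemma TData.both_cases [Fintype F] {σ : F ≃+* F} {ε : F} {G : Matrix ι ι F} {H : Subgroup (GL ι F)} {a : ℕ}
    {e : ι ≃ Fin a × Fin a} {P : GL ι F} {ε₁ ε₂ : F} {G₁ G₂ : Matrix (Fin a) (Fin a) F}
    (h : TData σ ε G H e P ε₁ ε₂ G₁ G₂) (hH : Irred H) (hs : H ≤ similarityGroup (gf σ G)) (ha : a.Prime)
    (hsolv₁ : ∀ L ≤ similarityGroup (gf σ G₁), ⁅L, L⁆ = L → L = ⊥)
    (hsolv₂ : ∀ L ≤ similarityGroup (gf σ G₂), ⁅L, L⁆ = L → L = ⊥) :
    CommCase σ G H ∨ ∃ N R, RSat a N R ∧ N ≤ similarityGroup (gf σ G) ∧ GNorms H N := by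
  haveI := h.nonempty
  rcases h.right_cases hH hs ha hsolv₂ with h' | ⟨N₂, R₂, k1, k2, k3⟩
  · exact Or.inl h'
  rcases h.swap.right_cases hH hs ha hsolv₁ with h' | ⟨N₁, R₁, l1, l2, l3⟩
  · exact Or.inl h'
  obtain ⟨R, hR⟩ := (l1.data.kronSub e P k1.data).exists_rSat fun g hg => ⟨1, by
    obtain ⟨x, hx, y, hy, rfl⟩ := mem_kronSub.1 hg
    rw [map_one, one_mul, ← map_pow, ← map_pow, Prod.pow_mk, l1.exp x hx, k1.exp y hy, Prod.mk_one_one, map_one,
      map_one]⟩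
  refine Or.inr ⟨_, R, hR, fun g hg => ?_, fun g hg z hz => ?_⟩
  · obtain ⟨x, hx, y, hy, rfl⟩ := mem_kronSub.1 hg
    obtain ⟨c, hc⟩ := mem_similarityGroup_gf.1 (l1.le.trans (sup_le l2 scalars_le_similarityGroup) hx)
    obtain ⟨d, hd⟩ := mem_similarityGroup_gf.1 (k1.le.trans (sup_le k2 scalars_le_similarityGroup) hy)
    rw [trGL_mem_similarityGroup, h.gram, mem_similarityGroup_gf]
    exact ⟨c * d, by rw [coe_kronGL, kronecker_transpose, kronecker_map, ← Matrix.mul_kronecker_mul,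
      ← Matrix.mul_kronecker_mul, hc, hd, Matrix.smul_kronecker, Matrix.kronecker_smul, smul_smul, Units.val_mul]⟩
  · obtain ⟨x, hx, y, hy, rfl⟩ := mem_kronSub.1 hz
    obtain ⟨u, v, hv, rfl⟩ := h.exists_eq hg
    have hu : u ∈ prj (e.trans (Equiv.prodComm _ _)) P H := mem_prj.2 ⟨v, by rw [trGL_kronGL_swap]; exact hg⟩
    refine mem_kronSub.2 ⟨_, l1.norm _ l3 u hu x hx, _, k1.norm _ k3 v hv y hy, ?_⟩
    rw [← map_inv, ← map_inv, ← map_mul, ← map_mul, ← map_mul, ← map_mul]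
    rfl

/-- two-dimensional orthogonal similarity groups have no absolutely irreducible perfect subgroup -/
lemma not_perfect_GO2 (h2 : (2 : F) ≠ 0) {G : Matrix (Fin 2) (Fin 2) F} (hG : Herm (RingEquiv.refl F) 1 G)
    {L : Subgroup (GL (Fin 2) F)} (hL : ⁅L, L⁆ = L) (hA : AbsIrr L) (hs : L ≤ similarityGroup (gf (RingEquiv.refl F) G)) :
    False := by
  have hu := hG.unit
  have key : ∀ z, adj (RingEquiv.refl F) G z = -z ↔ (G * z)ᵀ = -(G * z) := fun z => by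
    rw [adj_eq_iff hu, map_refl, Matrix.transpose_mul, hG.transpose_one, mul_neg]
  let z : GL (Fin 2) F := hu.unit⁻¹ * isUnit_J2.unit
  have hz1 : G * z = J2 F := by
    rw [Units.val_mul, ← mul_assoc, IsUnit.mul_val_inv, one_mul, IsUnit.unit_spec]
  have hz2 : adj (RingEquiv.refl F) G z = -z := by rw [key, hz1, J2_transpose]
  obtain ⟨c, hc⟩ := (mem_scalars_iff _).1 (hA.mem_scalars_of_comm (comm_of_perfect hL (g := z) fun g hg => by
    obtain ⟨c, hc⟩ := exists_smul_J2 h2 ((key (cj g z)).1 (by rw [adj_cj hu (hs hg), hz2, map_neg]))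
    rw [← hz1, ← Matrix.mul_smul] at hc
    have h3 : g * z * g⁻¹ * z⁻¹ ∈ scalars (Fin 2) F := mem_scalars_of_eq_smul (c := c) (by
      rw [Units.val_mul, ← cj_coe, hu.mul_left_cancel hc, Matrix.smul_mul, Units.mul_inv])
    simpa [mul_assoc] using (scalars (Fin 2) F).inv_mem h3))
  rw [hc, adj_smul_one hu, ← neg_smul] at hz2
  have h3 : (c : F) = -c := smul_one_injective hz2
  exact c.ne_zero (mul_left_cancel₀ h2 (by linear_combination h3))

lemma map_eq_smul_of_two_forms [Nonempty ι] {σ : F ≃+* F} {B : Matrix ι ι F} (hB : IsUnit B) {g : GL ι F}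
    (h1 : g ∈ similarityGroup (gf σ B)) (h2 : g ∈ similarityGroup (gf (RingEquiv.refl F) B)) :
    ∃ c : F, (g : Matrix ι ι F).map σ = c • (g : Matrix ι ι F) := by
  obtain ⟨c, hc⟩ := mem_similarityGroup_gf.1 h1
  obtain ⟨d, hd⟩ := mem_similarityGroup_gf.1 h2
  refine ⟨c / d, ((isUnit_transpose' g.isUnit).mul hB).mul_left_cancel ?_⟩
  rw [map_refl] at hd
  rw [hc, Matrix.mul_smul, hd, smul_smul, div_mul_cancel₀ _ d.ne_zero]

lemma exists_over_of_map_eq_smul [Nonempty ι] {σ : F ≃+* F} (hσ : ∀ a, σ (σ a) = a) (hne : σ ≠ RingEquiv.refl F)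
    {g : GL ι F} {c : F} (h : (g : Matrix ι ι F).map σ = c • (g : Matrix ι ι F)) :
    ∃ a : F, a ≠ 0 ∧ Over (fixSub σ) (a • (g : Matrix ι ι F)) := by
  have h1 : c * σ c = 1 := by
    have := map_map_invol hσ (g : Matrix ι ι F)
    rw [h, map_smul_equiv, h, smul_smul, eq_comm] at this
    rw [mul_comm]
    exact (smul_cancel_unit (g := g) ((one_smul F _).trans this)).symm
  obtain ⟨a, ha, ha'⟩ := H7.exists_div_conj (σ : F →+* F) hσ (exists_ne_of_ne_refl hne) h1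
  refine ⟨a, ha, fun i j => ?_⟩
  have := congrFun (congrFun h i) j
  simp only [Matrix.map_apply, Matrix.smul_apply, smul_eq_mul, RingHom.coe_coe] at this ha'
  rw [mem_fixSub, Matrix.smul_apply, smul_eq_mul, map_mul, this]
  nth_rewrite 2 [ha']
  ring

lemma mem_subfieldSubgroup_of_over {F₁ : Subfield F} {P g : GL ι F} {a : F} (ha : a ≠ 0)
    (h : Over F₁ (a • cj P⁻¹ (g : Matrix ι ι F))) : g ∈ subfieldSubgroup F₁ P := by
  let y : Matrix ι ι F₁ := Matrix.of fun i j => ⟨_, h i j⟩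
  have hy : y.map F₁.subtype = a • cj P⁻¹ (g : Matrix ι ι F) := rfl
  have hu : IsUnit y := by
    rw [Matrix.isUnit_iff_isUnit_det, isUnit_iff_ne_zero]
    intro h0
    have h1 : IsUnit (y.map F₁.subtype) := hy ▸ isUnit_smul_of_ne_zero ha (g.isUnit.map _)
    rw [Matrix.isUnit_iff_isUnit_det, isUnit_iff_ne_zero] at h1
    exact h1 (by rw [← RingHom.mapMatrix_apply, ← RingHom.map_det, h0, map_zero])
  exact (mem_subfieldSubgroup_iff _ _ _).2 ⟨a⁻¹, hu.unit, inv_ne_zero ha, by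
    rw [IsUnit.unit_spec, hy, smul_smul, inv_mul_cancel₀ ha, one_smul]⟩

lemma Over.submatrix {κ : Type} {F₁ : Subfield F} {x : Matrix κ κ F} (h : ∀ i j, x i j ∈ F₁) (e : ι → κ) :
    Over F₁ (x.submatrix e e) := fun _ _ => h _ _

/-- tensor powers of two-dimensional unitary spaces lie in class 5 -/
lemma PData.formC5_two [Fintype F] {σ : F ≃+* F} (hne : σ ≠ RingEquiv.refl F) {G : Matrix ι ι F}
    {H : Subgroup (GL ι F)} (hs : H ≤ similarityGroup (gf σ G)) {t : ℕ} {e : ι ≃ (Fin t → Fin 2)} {P : GL ι F}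
    {ε₀ : F} {G₀ : Matrix (Fin 2) (Fin 2) F} (h : PData σ G H e P ε₀ G₀) : FormC5 σ G H := by
  haveI : Nonempty ι := ⟨e.symm 0⟩
  obtain rfl := h.eps hne
  have hσ := h.herm.invol
  obtain ⟨δ, h0, hδ⟩ := H7.exists_skew (σ : F →+* F) hσ (exists_ne_of_ne_refl hne)
  simp only [RingHom.coe_coe] at hδ
  have hJ : Over (fixSub σ) (J2 F) := fun i j => by fin_cases i <;> fin_cases j <;> simp [J2]
  have hJ' : Herm σ 1 (δ • J2 F) := ⟨hσ, isUnit_smul_of_ne_zero h0 isUnit_J2, by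
    rw [map_smul_equiv, map_eq_of_over hJ, Matrix.transpose_smul, J2_transpose, hδ, one_smul, neg_smul_neg], Or.inl rfl⟩
  obtain ⟨P₁, hP₁⟩ := h.herm.exists_pbG_one hne (Equiv.refl _)
  obtain ⟨P₂, hP₂⟩ := hJ'.exists_pbG_one hne (Equiv.refl _)
  have h1 : pbG σ (Equiv.refl _) (P₁ * P₂⁻¹) G₀ = δ • J2 F := by
    apply pbG_injective σ (Equiv.refl _) P₂
    rw [hP₂, ← hP₁]
    exact gf_ext (σ := σ) fun u v => by
      rw [← gf_trv, ← gf_trv, ← gf_trv]
      simp only [trv, Equiv.coe_refl, Function.comp_id, Units.val_mul, Matrix.mulVec_mulVec, mul_assoc, Units.inv_mul,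
        mul_one]
  have h' := h.fr (P₁ * P₂⁻¹)
  rw [h1] at h'
  generalize Asch.fr e P (ptGL fun _ => P₁ * P₂⁻¹) = P' at h'
  obtain ⟨c, hc, h2⟩ := h'.gram
  rw [pt_smul, smul_smul, Finset.prod_const, Finset.card_fin] at h2
  have hc' : c * δ ^ t ≠ 0 := mul_ne_zero hc (pow_ne_zero _ h0)
  have hJt : Over (fixSub σ) (pt fun _ : Fin t => J2 F) := fun a b => by
    rw [pt_apply]; exact prod_mem fun i _ => hJ _ _
  obtain ⟨B, -, -, hB1, hB2⟩ := wreath_two_le e P'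
  refine ⟨fixSub σ, 2, P', (c * δ ^ t)⁻¹, Nat.prime_two, card_eq_card_fixSub_sq hσ hne, inv_ne_zero hc', ?_,
    fun g hg => ?_⟩
  · have : pbG σ (Equiv.refl ι) P' G = (pbG σ e P' G).submatrix e e := by
      ext i j; simp [pbG]
    rw [this, h2, Matrix.submatrix_smul, Pi.smul_apply, Pi.smul_apply, smul_smul, inv_mul_cancel₀ hc', one_smul]
    exact Over.submatrix hJt e
  · have k1 := hs hg
    have k2 := hB2 (h'.le hg)
    obtain ⟨g, rfl⟩ := (trGL e P').surjective g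
    rw [trGL_mem_similarityGroup] at k1 k2
    rw [hB1] at k2
    rw [h2] at k1
    obtain ⟨d, hd⟩ := map_eq_smul_of_two_forms (σ := σ) (isUnit_pt fun _ => isUnit_J2) (by
      obtain ⟨d, hd⟩ := k1
      exact ⟨d, fun u v => mul_left_cancel₀ hc' (by rw [← gf_smul, hd, gf_smul]; ring)⟩) k2
    obtain ⟨a, ha, ha'⟩ := exists_over_of_map_eq_smul hσ hne hd
    refine mem_subfieldSubgroup_of_over ha ?_
    rw [coe_trGL, tr_apply, cj_inv_cj]
    exact Over.submatrix ha' e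

end Cfsg.Agent.Asch
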