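import Cfsg.Agent.Asch.FormC5

/-! Tensor powers relative to a form; invariant quadratic forms. -/

set_option autoImplicit false
set_option linter.unusedSimpArgs false
set_option linter.unusedSectionVars false

namespace Cfsg.Agent.Asch

open scoped MatrixGroups Matrix Kronecker
open Cfsg Cfsg.Geo

variable {ι : Type} [Fintype ι] [DecidableEq ι] {F : Type*} [Field F]

lemma exists_gram_of_star {κ : Type} [Fintype κ] [DecidableEq κ] [Nonempty κ] {σ : F ≃+* F} {ε : F} {G : Matrix ι ι F}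
    (hG : Herm σ ε G) (φ : Matrix κ κ F →ₐ[F] Matrix ι ι F) (hφ : Function.Injective φ)
    (h : ∀ x, ∃ x', adj σ G (φ x) = φ x') :
    ∃ (ε₀ : F) (G₀ : Matrix κ κ F), Herm σ ε₀ G₀ ∧ (σ ≠ RingEquiv.refl F → ε₀ = 1) ∧
      ∀ x, adj σ G (φ x) = φ (adj σ G₀ x) := by
  choose θ hθ using h
  have hmul : ∀ x y, θ (x * y) = θ y * θ x := fun x y => hφ (by rw [← hθ, map_mul, adj_mul hG.unit, hθ, hθ, map_mul])
  have hadd : ∀ x y, θ (x + y) = θ x + θ y := fun x y => hφ (by rw [← hθ, map_add, adj_add, hθ, hθ, map_add])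
  have hsmul : ∀ (c : F) x, θ (c • x) = σ.symm c • θ x := fun c x => hφ (by
    rw [← hθ, map_smul, adj_smul, hθ, map_smul])
  have hone : θ 1 = 1 := hφ (by rw [← hθ, map_one, adj_one hG.unit])
  let ψ : Matrix κ κ F →ₐ[F] Matrix κ κ F := AlgHom.ofLinearMap
    { toFun := fun x => ((θ x).map σ)ᵀ
      map_add' := fun x y => by rw [hadd, map_add_equiv, Matrix.transpose_add]
      map_smul' := fun c x => by rw [hsmul, map_smul_equiv, Matrix.transpose_smul, RingEquiv.apply_symm_apply]; rfl }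
    (by change ((θ 1).map σ)ᵀ = 1; rw [hone, map_one_equiv, Matrix.transpose_one])
    (fun x y => by
      change ((θ (x * y)).map σ)ᵀ = ((θ x).map σ)ᵀ * ((θ y).map σ)ᵀ
      rw [hmul, map_mul_equiv, Matrix.transpose_mul])
  obtain ⟨g, hg⟩ := exists_cj_of_algHom ψ
  have hu := isUnit_transpose' g.isUnit
  have h1 : ∀ x, adj σ (g : Matrix κ κ F)ᵀ x = θ x := fun x => by
    rw [adj_eq_iff hu, ← Matrix.transpose_mul, ← cj_mul_self, ← hg, Matrix.transpose_mul]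
    rfl
  obtain ⟨c, hc⟩ := exists_star_eq_smul hG.invol hu fun x => hφ (by rw [h1, h1, ← hθ, ← hθ, hG.adj_adj])
  obtain ⟨d, ε₀, hd, h2, h3⟩ := exists_herm_of_star hG.invol hu hc
  exact ⟨ε₀, _, h2, h3, fun x => by rw [adj_smul_gram hu hd, h1, hθ]⟩

section power
variable {m t : ℕ}

lemma adj_pt {σ : F ≃+* F} {Gs : Fin t → Matrix (Fin m) (Fin m) F} (h : ∀ i, IsUnit (Gs i))
    (xs : Fin t → Matrix (Fin m) (Fin m) F) : adj σ (pt Gs) (pt xs) = pt fun i => adj σ (Gs i) (xs i) := by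
  rw [adj_eq_iff (isUnit_pt h), pt_map, pt_transpose, ← map_mul, ← map_mul]
  congr 1
  ext1 i
  exact (mul_adj_map (h i) (xs i)).symm

lemma adj_ins {σ : F ≃+* F} {Gs : Fin t → Matrix (Fin m) (Fin m) F} (h : ∀ i, IsUnit (Gs i)) (i : Fin t)
    (x : Matrix (Fin m) (Fin m) F) : adj σ (pt Gs) (ins i x) = ins i (adj σ (Gs i) x) := by
  rw [ins_apply, ins_apply, adj_pt h]
  congr 1
  ext1 j
  by_cases hj : j = i
  · subst hj; simp
  · simp [hj, adj_one (h j)]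

lemma ins_transpose (i : Fin t) (x : Matrix (Fin m) (Fin m) F) : (ins i x)ᵀ = ins i xᵀ := by
  rw [ins_apply, ins_apply, pt_transpose]
  congr 1
  ext1 j
  by_cases hj : j = i
  · subst hj; simp
  · simp [hj]

lemma eq_smul_pt_of_adj {σ : F ≃+* F} {Γ : Matrix (Fin t → Fin m) (Fin t → Fin m) F} (hΓ : IsUnit Γ)
    {Gs : Fin t → Matrix (Fin m) (Fin m) F} (h : ∀ i, IsUnit (Gs i))
    (h1 : ∀ i x, adj σ Γ (ins i x) = ins i (adj σ (Gs i) x)) : ∃ c : F, Γ = c • pt Gs := by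
  obtain ⟨G, hG⟩ := isUnit_pt h
  obtain ⟨c, hc⟩ := scalar_of_commute_ins (Γ * ((G⁻¹ : GL _ F) : Matrix _ _ F)) fun i y => by
    have h2 := mul_adj_map (σ := σ) G.isUnit (ins i yᵀ)
    have h3 := mul_adj_map (σ := σ) hΓ (ins i yᵀ)
    rw [ins_transpose, Matrix.transpose_transpose] at h2 h3
    rw [h1, ← adj_ins h, ← hG] at h3
    apply G.isUnit.mul_right_cancel
    rw [mul_assoc, ← h2, mul_assoc, Units.inv_mul_cancel_left, h3]
    simp [mul_assoc]
  refine ⟨c, ?_⟩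
  calc Γ = Γ * (G⁻¹ : GL _ F) * G := by simp [mul_assoc]
    _ = _ := by rw [hc, smul_mul_assoc, one_mul, hG]

/-- pure tensor vectors -/
def pvec (x : Fin t → Fin m → F) : (Fin t → Fin m) → F := fun c => ∏ i, x i (c i)

lemma pt_mulVec_pvec (gs : Fin t → Matrix (Fin m) (Fin m) F) (x : Fin t → Fin m → F) :
    pt gs *ᵥ pvec x = pvec fun i => gs i *ᵥ x i := by
  ext c
  simp only [Matrix.mulVec, dotProduct, pt_apply, pvec, Fintype.prod_sum, Finset.prod_mul_distrib]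

lemma dotProduct_pvec (x y : Fin t → Fin m → F) : pvec x ⬝ᵥ pvec y = ∏ i, x i ⬝ᵥ y i := by
  simp only [dotProduct, pvec, Fintype.prod_sum, Finset.prod_mul_distrib]

lemma gf_pt_pvec (Gs : Fin t → Matrix (Fin m) (Fin m) F) (x y : Fin t → Fin m → F) :
    gf (RingEquiv.refl F) (pt Gs) (pvec x) (pvec y) = ∏ i, gf (RingEquiv.refl F) (Gs i) (x i) (y i) := by
  change pvec x ⬝ᵥ pt Gs *ᵥ pvec y = _
  rw [pt_mulVec_pvec, dotProduct_pvec]
  rfl

lemma fp_mulVec_pvec (s : Equiv.Perm (Fin t)) (x : Fin t → Fin m → F) :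
    (fp s : Matrix _ _ F) *ᵥ pvec x = pvec (x ∘ s.symm) := by
  ext c
  simp only [Matrix.mulVec, dotProduct, fp_apply, ite_mul, one_mul, zero_mul, Finset.sum_ite_eq', Finset.mem_univ,
    if_true, pvec, Function.comp_apply]
  exact Fintype.prod_equiv s _ _ fun i => by simp

lemma pvec_single (a : Fin t → Fin m) : pvec (fun i => (Pi.single (a i) 1 : Fin m → F)) = Pi.single a 1 := by
  ext c
  simp only [pvec, Pi.single_apply, Finset.prod_ite_zero, Finset.mem_univ, forall_true_left, Finset.prod_const_one,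
    funext_iff]

end power

/-- tensor-power decomposition of the form preserved by `H` -/
structure PData (σ : F ≃+* F) (G : Matrix ι ι F) (H : Subgroup (GL ι F)) {m t : ℕ} (e : ι ≃ (Fin t → Fin m))
    (P : GL ι F) (ε₀ : F) (G₀ : Matrix (Fin m) (Fin m) F) : Prop where
  hm : 2 ≤ m
  ht : 2 ≤ t
  herm : Herm σ ε₀ G₀
  eps : σ ≠ RingEquiv.refl F → ε₀ = 1
  gram : ∃ c : F, c ≠ 0 ∧ pbG σ e P G = c • pt fun _ => G₀
  le : H ≤ tensorWreathSubgroup m t e P

lemma PowerCase.pData {σ : F ≃+* F} {ε : F} {G : Matrix ι ι F} (hG : Herm σ ε G) {H : Subgroup (GL ι F)}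
    (hs : H ≤ similarityGroup (gf σ G)) (h : PowerCase H) :
    ∃ (m t : ℕ) (e : ι ≃ (Fin t → Fin m)) (P : GL ι F) (ε₀ : F) (G₀ : Matrix (Fin m) (Fin m) F)
      (L : Subgroup (GL (Fin m) F)), PData σ G H e P ε₀ G₀ ∧ ⁅L, L⁆ = L ∧ AbsIrr L ∧
      L ≤ similarityGroup (gf σ G₀) := by
  obtain ⟨m, t, e, P, N, L, h, φ, hm, ht, h1, h2, -, -, h3, -, h4, -, h5, h6, h7⟩ := h
  haveI : Nonempty (Fin m) := ⟨⟨0, by omega⟩⟩
  haveI : Nonempty ι := ⟨e.symm fun _ => ⟨0, by omega⟩⟩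
  have hφ : Function.Injective φ := RingHom.injective φ.toRingHom
  have hst := starC_spanAlg hG.unit (h3.trans (h2.trans hs))
  obtain ⟨ε₀, G₀, k1, k2, k3⟩ := exists_gram_of_star hG φ hφ fun x => (h6 _).1 (hst _ ((h6 _).2 ⟨x, rfl⟩))
  have hu := (isUnit_pbG_iff σ e P G).2 hG.unit
  obtain ⟨c, hc⟩ := eq_smul_pt_of_adj (σ := σ) hu (Gs := fun _ => G₀) (fun _ => k1.unit) fun i x =>
    (tr e P).injective (by rw [← adj_tr hG.unit, h7, h7, adj_cj hG.unit (hs (h5 i)), k3])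
  let ψ : GL (Fin m) F →* GL ι F := Units.map (φ : Matrix (Fin m) (Fin m) F →* Matrix ι ι F)
  have hψ : Function.Injective ψ := Units.map_injective hφ
  have hψ' : ∀ (g : GL (Fin m) F) z, cj (ψ g) (φ z) = φ (cj g z) := fun g z => by
    rw [cj_apply, cj_apply, map_mul, map_mul]; rfl
  have hL : (L.comap ψ).map ψ = L := by
    apply Subgroup.map_comap_eq_self
    intro x hx
    obtain ⟨y, hy⟩ := (h6 _).1 (coe_mem_spanAlg hx)
    exact ⟨(isUnit_of_algHom_injective φ hφ (hy ▸ x.isUnit)).unit, Units.ext hy.symm⟩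
  refine ⟨m, t, e, P, ε₀, G₀, L.comap ψ, ⟨hm, ht, k1, k2, ⟨c, ?_, hc⟩, h1⟩, ?_, fun x => ?_, fun g hg => ?_⟩
  · rintro rfl
    exact hu.ne_zero (by rw [hc, zero_smul])
  · apply Subgroup.map_injective hψ
    rw [Subgroup.map_commutator, hL, h4]
  · obtain ⟨y, hy, h⟩ := spanAlg_induction (p := fun z => ∃ y ∈ spanAlg F (L.comap ψ), φ y = z) (fun g hg => by
      rw [← hL] at hg
      obtain ⟨g', hg', rfl⟩ := hg
      exact ⟨g', coe_mem_spanAlg hg', rfl⟩) ⟨0, zero_mem _, map_zero _⟩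
      (by rintro _ _ ⟨a, ha, rfl⟩ ⟨b, hb, rfl⟩; exact ⟨a + b, add_mem ha hb, map_add _ _ _⟩)
      (by rintro c _ ⟨a, ha, rfl⟩; exact ⟨c • a, Subalgebra.smul_mem _ ha c, map_smul _ _ _⟩) ((h6 _).2 ⟨x, rfl⟩)
    exact hφ h ▸ hy
  · refine mem_similarityGroup_of_adj_cj k1.unit fun z => hφ ?_
    rw [← k3, ← hψ', ← hψ', adj_cj hG.unit (hs (h2 (h3 hg))), k3]

lemma tensorProductSubgroup_fr {a b : ℕ} (e : ι ≃ Fin a × Fin b) (P : GL ι F) (P₁ : GL (Fin a) F) (P₂ : GL (Fin b) F) :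
    tensorProductSubgroup a b e P ≤ tensorProductSubgroup a b e (fr e P (kronGL (P₁, P₂))) := by
  intro g hg
  obtain ⟨x, y, rfl⟩ := (mem_tensorProductSubgroup' e P g).1 hg
  refine (mem_tensorProductSubgroup' _ _ _).2 ⟨P₁⁻¹ * x * P₁, P₂⁻¹ * y * P₂, ?_⟩
  rw [trGL_fr, ← map_inv, ← map_mul, ← map_mul]
  simp [mul_assoc]

lemma TData.fr {σ : F ≃+* F} {ε : F} {G : Matrix ι ι F} {H : Subgroup (GL ι F)} {a b : ℕ} {e : ι ≃ Fin a × Fin b}
    {P : GL ι F} {ε₁ ε₂ : F} {G₁ : Matrix (Fin a) (Fin a) F} {G₂ : Matrix (Fin b) (Fin b) F}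
    (h : TData σ ε G H e P ε₁ ε₂ G₁ G₂) (P₁ : GL (Fin a) F) (P₂ : GL (Fin b) F) :
    TData σ ε G H e (fr e P (kronGL (P₁, P₂))) ε₁ ε₂ (pbG σ (Equiv.refl _) P₁ G₁) (pbG σ (Equiv.refl _) P₂ G₂) :=
  { h with
    h₁ := h.h₁.pbG _ _
    h₂ := h.h₂.pbG _ _
    gram := by
      rw [pbG_fr, h.gram, coe_kronGL, kronecker_transpose, kronecker_map, ← Matrix.mul_kronecker_mul,
        ← Matrix.mul_kronecker_mul, pbG_refl, pbG_refl]
    le := h.le.trans (tensorProductSubgroup_fr e P P₁ P₂) }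

lemma TData.pData {σ : F ≃+* F} {ε : F} {G : Matrix ι ι F} {H : Subgroup (GL ι F)} {a : ℕ} {e : ι ≃ Fin a × Fin a}
    {P : GL ι F} {ε₁ ε₂ : F} {G₀ : Matrix (Fin a) (Fin a) F} {c₁ c₂ : F} (h : TData σ ε G H e P ε₁ ε₂ (c₁ • G₀) (c₂ • G₀))
    {ε₀ : F} (h0 : Herm σ ε₀ G₀) (h1 : σ ≠ RingEquiv.refl F → ε₀ = 1) : PData σ G H (sqFrame e) P ε₀ G₀ where
  hm := h.ha
  ht := le_rfl
  herm := h0
  eps := h1
  gram := by
    haveI : Nonempty (Fin a) := ⟨⟨0, by have := h.ha; omega⟩⟩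
    refine ⟨c₁ * c₂, mul_ne_zero ?_ ?_, ?_⟩
    · rintro rfl; exact h.h₁.unit.ne_zero (zero_smul _ _)
    · rintro rfl; exact h.h₂.unit.ne_zero (zero_smul _ _)
    · rw [sqFrame, pbG_trans, h.gram]
      ext i j
      simp [pt_apply, Fin.prod_univ_two, finTwoArrowEquiv]
      ring
  le := h.le.trans (tensorProductSubgroup_le_wreath e P)

lemma tensorWreathSubgroup_fr {m t : ℕ} (e : ι ≃ (Fin t → Fin m)) (P : GL ι F) (Ps : Fin t → GL (Fin m) F) :
    tensorWreathSubgroup m t e P ≤ tensorWreathSubgroup m t e (fr e P (ptGL Ps)) := by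
  intro g hg
  rw [tensorWreathSubgroup, mem_map_trGL] at hg ⊢
  obtain ⟨g, rfl⟩ := (trGL e P).surjective g
  rw [MulEquiv.symm_apply_apply] at hg
  have : trGL e P g = trGL e (fr e P (ptGL Ps)) ((ptGL Ps)⁻¹ * g * ptGL Ps) := by
    rw [trGL_fr]; simp [mul_assoc]
  rw [this, MulEquiv.symm_apply_apply]
  exact Subgroup.mul_mem _ (Subgroup.mul_mem _ (Subgroup.inv_mem _ (ptGL_mem Ps)) hg) (ptGL_mem Ps)

lemma PData.fr {σ : F ≃+* F} {G : Matrix ι ι F} {H : Subgroup (GL ι F)} {m t : ℕ} {e : ι ≃ (Fin t → Fin m)}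
    {P : GL ι F} {ε₀ : F} {G₀ : Matrix (Fin m) (Fin m) F} (h : PData σ G H e P ε₀ G₀) (P₀ : GL (Fin m) F) :
    PData σ G H e (fr e P (ptGL fun _ => P₀)) ε₀ (pbG σ (Equiv.refl _) P₀ G₀) :=
  { h with
    herm := h.herm.pbG _ _
    gram := by
      obtain ⟨c, hc, h1⟩ := h.gram
      refine ⟨c, hc, ?_⟩
      rw [pbG_fr, h1, coe_ptGL, pt_transpose, pt_map, Matrix.mul_smul, Matrix.smul_mul, ← map_mul, ← map_mul]
      rfl
    le := h.le.trans (tensorWreathSubgroup_fr e P _) }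

/-! ### structures of the frozen definitions -/

lemma TData.isTensorFormStructure {σ : F ≃+* F} {ε : F} {G : Matrix ι ι F} {H : Subgroup (GL ι F)} {a b : ℕ}
    {e : ι ≃ Fin a × Fin b} {P : GL ι F} {ε₁ ε₂ : F} {G₁ : Matrix (Fin a) (Fin a) F} {G₂ : Matrix (Fin b) (Fin b) F}
    (h : TData σ ε G H e P ε₁ ε₂ G₁ G₂) : IsTensorFormStructure σ (gf σ G) (gf σ G₁) (gf σ G₂) e P :=
  ⟨1, one_ne_zero, fun x y => by
    rw [one_mul, formOfGram_eq_gf, gramMatrix_gf, gramMatrix_gf, ← h.gram, ← gf_trv]; rfl⟩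

lemma PData.isTensorPowerFormStructure {σ : F ≃+* F} {G : Matrix ι ι F} {H : Subgroup (GL ι F)} {m t : ℕ}
    {e : ι ≃ (Fin t → Fin m)} {P : GL ι F} {ε₀ : F} {G₀ : Matrix (Fin m) (Fin m) F} (h : PData σ G H e P ε₀ G₀) :
    IsTensorPowerFormStructure σ (gf σ G) (gf σ G₀) e P := by
  obtain ⟨c, hc, h1⟩ := h.gram
  refine ⟨c, hc, fun x y => ?_⟩
  have := gf_trv σ e P G x y
  rw [h1, gf_smul, ← formOfGram_eq_gf σ (pt _)] at this
  rw [gramMatrix_gf]
  exact this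

lemma PData.eps_pow {ε : F} {G : Matrix ι ι F} (hG : Herm (RingEquiv.refl F) ε G) {H : Subgroup (GL ι F)} {m t : ℕ}
    {e : ι ≃ (Fin t → Fin m)} {P : GL ι F} {ε₀ : F} {G₀ : Matrix (Fin m) (Fin m) F}
    (h : PData (RingEquiv.refl F) G H e P ε₀ G₀) : ε = ε₀ ^ t := by
  haveI : Nonempty (Fin m) := ⟨⟨0, by have := h.hm; omega⟩⟩
  obtain ⟨c, hc, h1⟩ := h.gram
  have h2 := hG.pbG e P
  have h3 := h2.transpose_eq
  have hu := h2.unit
  rw [h1] at h3 hu
  rw [Matrix.transpose_smul, pt_transpose, h.herm.transpose_eq, pt_smul, Finset.prod_const, Finset.card_fin,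
    smul_comm] at h3
  exact (smul_left_injective F hu.ne_zero h3).symm

/-! ### invariant quadratic forms -/

lemma quad_add {Q : (ι → F) → F} (u v : ι → F) : Q (u + v) = Q u + Q v + QuadraticMap.polar Q u v := by
  rw [QuadraticMap.polar]; ring

lemma quad_zero {Q : (ι → F) → F} (hQ : ∀ (c : F) v, Q (c • v) = c ^ 2 * Q v) : Q 0 = 0 := by
  simpa using hQ 0 0

lemma polar_self_eq {Q : (ι → F) → F} (hQ : ∀ (c : F) v, Q (c • v) = c ^ 2 * Q v) (v : ι → F) :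
    QuadraticMap.polar Q v v = 2 * Q v := by
  rw [QuadraticMap.polar, ← two_smul F v, hQ]; ring

/-- the subspace where two quadratic forms with the same polar form agree -/
def agree (Q Q' : (ι → F) → F) (hQ : ∀ (c : F) v, Q (c • v) = c ^ 2 * Q v) (hQ' : ∀ (c : F) v, Q' (c • v) = c ^ 2 * Q' v)
    (hp : QuadraticMap.polar Q = QuadraticMap.polar Q') : Submodule F (ι → F) where
  carrier := {v | Q v = Q' v}
  add_mem' {u v} hu hv := by
    change Q (u + v) = Q' (u + v)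
    rw [quad_add (Q := Q), quad_add (Q := Q'), hp, hu, hv]
  zero_mem' := (quad_zero hQ).trans (quad_zero hQ').symm
  smul_mem' c v hv := by
    change Q (c • v) = Q' (c • v)
    rw [hQ, hQ', hv]

lemma Irred.quad_unique [Finite F] {H : Subgroup (GL ι F)} (hH : Irred H) (hn : 2 ≤ Fintype.card ι)
    {Q Q' : (ι → F) → F} (hQ : ∀ (c : F) v, Q (c • v) = c ^ 2 * Q v) (hQ' : ∀ (c : F) v, Q' (c • v) = c ^ 2 * Q' v)
    (hp : QuadraticMap.polar Q = QuadraticMap.polar Q') (h1 : FixesQuadForm (matrixSet H) Q)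
    (h2 : FixesQuadForm (matrixSet H) Q') : Q = Q' := by
  by_cases h2' : (2 : F) = 0
  · rcases hH (agree Q Q' hQ hQ' hp) (fun g hg v hv =>
      (h1 _ (mem_matrixSet hg) v).trans (hv.trans (h2 _ (mem_matrixSet hg) v).symm)) with h | h
    · obtain ⟨v, -, h0, hv⟩ := exists_ne_zero_of_additive h2' ⊤ (by simpa using hn) (fun v => Q v - Q' v)
        (fun u _ v _ => by rw [quad_add (Q := Q), quad_add (Q := Q'), hp]; ring) (fun c v => by rw [hQ, hQ']; ring)
      have : v ∈ agree Q Q' hQ hQ' hp := sub_eq_zero.1 hv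
      rw [h] at this
      exact absurd this h0
    · exact funext fun v => (h ▸ Submodule.mem_top : v ∈ agree Q Q' hQ hQ' hp)
  · exact funext fun v => mul_left_cancel₀ h2' (by rw [← polar_self_eq hQ, hp, polar_self_eq hQ'])

lemma fixesQuad_of_normal [Finite F] {N H : Subgroup (GL ι F)} (hN : Irred N) (hH : GNorms H N)
    (hn : 2 ≤ Fintype.card ι) {Q : (ι → F) → F} (hQ : ∀ (c : F) v, Q (c • v) = c ^ 2 * Q v)
    (h1 : FixesQuadForm (matrixSet N) Q) (h2 : FixesForm (matrixSet H) (QuadraticMap.polar Q)) :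
    FixesQuadForm (matrixSet H) Q := by
  rintro _ ⟨g, hg, rfl⟩ v
  refine congrFun (hN.quad_unique hn (Q := fun v => Q ((g : Matrix ι ι F) *ᵥ v))
    (fun c v => by rw [Matrix.mulVec_smul, hQ]) hQ ?_ ?_ h1) v
  · ext u w
    rw [← h2 _ (mem_matrixSet hg), QuadraticMap.polar, QuadraticMap.polar, Matrix.mulVec_add]
  · rintro _ ⟨x, hx, rfl⟩ w
    change Q _ = Q _
    rw [← cj_mulVec, cj_coe, h1 _ (mem_matrixSet (hH g hg x hx))]

/-- a quadratic form vanishing on an invariant family of vectors containing a basis -/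
lemma fixesQuad_of_basis {κ : Type} [Fintype κ] [DecidableEq κ] (e : ι ≃ κ) (P : GL ι F) {H : Subgroup (GL ι F)}
    {Q : (ι → F) → F} (hQ : ∀ (c : F) v, Q (c • v) = c ^ 2 * Q v)
    (h2 : FixesForm (matrixSet H) (QuadraticMap.polar Q))
    (h : ∀ g ∈ H, ∀ a, Q ((g : Matrix ι ι F) *ᵥ trv e P (Pi.single a 1)) = Q (trv e P (Pi.single a 1))) :
    FixesQuadForm (matrixSet H) Q := by
  rintro _ ⟨g, hg, rfl⟩ v
  obtain ⟨v, rfl⟩ := trv_surjective e P v
  let W := agree (fun v => Q ((g : Matrix ι ι F) *ᵥ trv e P v)) (fun v => Q (trv e P v))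
    (fun c v => by rw [trv_smul, Matrix.mulVec_smul, hQ]) (fun c v => by rw [trv_smul, hQ]) (by
      ext u w
      have := h2 _ (mem_matrixSet hg) (trv e P u) (trv e P w)
      simp only [QuadraticMap.polar, trv_add, Matrix.mulVec_add] at this ⊢
      exact this)
  change v ∈ W
  rw [eq_sum_smul_single v]
  exact W.sum_mem fun a _ => W.smul_mem _ (h g hg a)

lemma polar_gf' (M : Matrix ι ι F) :
    QuadraticMap.polar (fun v => gf (RingEquiv.refl F) M v v) = gf (RingEquiv.refl F) (M + Mᵀ) := by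
  ext u v
  have := gf_swap (σ := RingEquiv.refl F) (fun _ => rfl) M u v
  rw [map_refl] at this
  rw [QuadraticMap.polar, (sesq_gf _ M).add_left, (sesq_gf _ M).add_right, (sesq_gf _ M).add_right, gf_add, ← this,
    RingEquiv.refl_apply]
  ring

lemma gf_self_smul (M : Matrix ι ι F) (c : F) (v : ι → F) :
    gf (RingEquiv.refl F) M (c • v) (c • v) = c ^ 2 * gf (RingEquiv.refl F) M v v := by
  rw [(sesq_gf _ M).smul_left, (sesq_gf _ M).smul_right, RingEquiv.refl_apply]; ring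

lemma exists_triangular {n : ℕ} {G : Matrix (Fin n) (Fin n) F} (h : Gᵀ = G) (hd : ∀ i, G i i = 0) :
    ∃ U : Matrix (Fin n) (Fin n) F, U + Uᵀ = G := by
  refine ⟨Matrix.of fun i j => if i < j then G i j else 0, ?_⟩
  ext i j
  have := congrFun (congrFun h i) j
  rw [Matrix.transpose_apply] at this
  rcases lt_trichotomy i j with hij | rfl | hij
  · simp [hij, hij.le, not_lt.2 hij.le]
  · simp [hd]
  · simp [hij, hij.le, not_lt.2 hij.le, this]

/-- the quadratic form with matrix `M` in the frame -/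
lemma exists_quad_of_frame {κ : Type} [Fintype κ] [DecidableEq κ] (e : ι ≃ κ) (P : GL ι F) {G : Matrix ι ι F}
    (hG : IsUnit G) {M : Matrix κ κ F} (hM : M + Mᵀ = pbG (RingEquiv.refl F) e P G) :
    ∃ Q : (ι → F) → F, IsNondegenerateQuadraticForm Q ∧ QuadraticMap.polar Q = gf (RingEquiv.refl F) G ∧
      ∀ x, Q (trv e P x) = gf (RingEquiv.refl F) M x x := by
  obtain ⟨M', rfl⟩ := pbG_surjective (RingEquiv.refl F) e P M
  have h1 : M' + M'ᵀ = G := by
    apply pbG_injective (RingEquiv.refl F) e P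
    rw [← hM, ← pbG_transpose]
    exact gf_ext (σ := RingEquiv.refl F) fun u v => by rw [gf_add, ← gf_trv, ← gf_trv, ← gf_trv, gf_add]
  have hp := polar_gf' M'
  rw [h1] at hp
  exact ⟨fun v => gf (RingEquiv.refl F) M' v v, ⟨gf_self_smul M', by rw [hp]; exact (sesq_gf _ G).bilinear,
    by rw [hp]; exact (nondeg_gf_iff _ G).2 hG⟩, hp, fun x => gf_trv _ _ _ _ _ _⟩

/-- pure tensor vectors, two factors -/
def kvec {κ β : Type} (x : κ → F) (y : β → F) : κ × β → F := fun c => x c.1 * y c.2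

lemma kronecker_mulVec_kvec {κ β : Type} [Fintype κ] [Fintype β] (g : Matrix κ κ F) (h : Matrix β β F) (x : κ → F)
    (y : β → F) : (g ⊗ₖ h) *ᵥ kvec x y = kvec (g *ᵥ x) (h *ᵥ y) := by
  ext ⟨i, j⟩
  simp only [Matrix.mulVec, dotProduct, kvec, Fintype.sum_prod_type, Matrix.kroneckerMap_apply, Finset.sum_mul_sum]
  exact Finset.sum_congr rfl fun _ _ => Finset.sum_congr rfl fun _ _ => by ring

lemma gf_kronecker_kvec {κ β : Type} [Fintype κ] [Fintype β] [DecidableEq κ] [DecidableEq β] (g : Matrix κ κ F)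
    (h : Matrix β β F) (x x' : κ → F) (y y' : β → F) :
    gf (RingEquiv.refl F) (g ⊗ₖ h) (kvec x y) (kvec x' y') =
      gf (RingEquiv.refl F) g x x' * gf (RingEquiv.refl F) h y y' := by
  change kvec x y ⬝ᵥ (g ⊗ₖ h) *ᵥ kvec x' y' = (x ⬝ᵥ g *ᵥ x') * (y ⬝ᵥ h *ᵥ y')
  rw [kronecker_mulVec_kvec]
  simp only [dotProduct, kvec, Fintype.sum_prod_type, Finset.sum_mul_sum]
  exact Finset.sum_congr rfl fun _ _ => Finset.sum_congr rfl fun _ _ => by ring

lemma kvec_single {κ β : Type} [DecidableEq κ] [DecidableEq β] (i : κ) (j : β) :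
    kvec (Pi.single i (1 : F)) (Pi.single j 1) = Pi.single (i, j) 1 := by
  ext ⟨k, l⟩
  simp only [kvec, Pi.single_apply, Prod.mk.injEq]
  by_cases h1 : k = i <;> by_cases h2 : l = j <;> simp [h1, h2]

lemma neg_one_eq_one (h2 : (2 : F) = 0) : (-1 : F) = 1 := by linear_combination -h2

lemma Herm.symm_of_two (h2 : (2 : F) = 0) {ε : F} {G : Matrix ι ι F} (h : Herm (RingEquiv.refl F) ε G) : Gᵀ = G := by
  rcases h.eps with rfl | rfl
  · exact h.transpose_one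
  · rw [h.transpose_eq, neg_one_eq_one h2, one_smul]

lemma Herm.skew_of_two (h2 : (2 : F) = 0) {ε : F} {G : Matrix ι ι F} (h : Herm (RingEquiv.refl F) ε G) : Gᵀ = -G := by
  rw [h.symm_of_two h2, ← neg_one_smul F G, neg_one_eq_one h2, one_smul]

lemma TData.exists_quad [Finite F] (h2 : (2 : F) = 0) {ε : F} {G : Matrix ι ι F} {H : Subgroup (GL ι F)} {a b : ℕ}
    {e : ι ≃ Fin a × Fin b} {P : GL ι F} {ε₁ ε₂ : F} {G₁ : Matrix (Fin a) (Fin a) F} {G₂ : Matrix (Fin b) (Fin b) F}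
    (h : TData (RingEquiv.refl F) ε G H e P ε₁ ε₂ G₁ G₂) (hH : Irred H) (hf : FixesGram (RingEquiv.refl F) H G) :
    IsSymplecticForm (gf (RingEquiv.refl F) G₁) ∧ IsSymplecticForm (gf (RingEquiv.refl F) G₂) ∧
    ∃ Q : (ι → F) → F, IsNondegenerateQuadraticForm Q ∧ QuadraticMap.polar Q = gf (RingEquiv.refl F) G ∧
      FixesQuadForm (matrixSet H) Q ∧ ∀ x y, Q (trv e P (kvec x y)) = 0 := by
  have a2 := (h.prj_irred hH).alt_of_symm h2 (by simpa using h.hb) (h.h₂.symm_of_two h2) (h.prj_sim hf.le_sim)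
  have a1 := (h.swap.prj_irred hH).alt_of_symm h2 (by simpa using h.ha) (h.h₁.symm_of_two h2) (h.swap.prj_sim hf.le_sim)
  refine ⟨isSymplecticForm_gf h.h₁.unit (h.h₁.skew_of_two h2) a1,
    isSymplecticForm_gf h.h₂.unit (h.h₂.skew_of_two h2) a2, ?_⟩
  obtain ⟨U, hU⟩ := exists_triangular (h.h₁.symm_of_two h2) fun i => (gf_single _ _ i i).symm.trans (a1 _)
  obtain ⟨Q, k1, k2, k3⟩ := exists_quad_of_frame e P h.herm.unit (M := U ⊗ₖ G₂) (by
    rw [h.gram, kronecker_transpose, h.h₂.symm_of_two h2, ← Matrix.add_kronecker, hU])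
  have k4 : ∀ x y, Q (trv e P (kvec x y)) = 0 := fun x y => by rw [k3, gf_kronecker_kvec, a2, mul_zero]
  refine ⟨Q, k1, k2, fixesQuad_of_basis e P k1.smul (by rw [k2, ← fixesGram_iff]; exact hf) ?_, k4⟩
  rintro g hg ⟨i, j⟩
  obtain ⟨x, y, -, rfl⟩ := h.exists_eq hg
  rw [coe_trGL, tr_mulVec, ← kvec_single, coe_kronGL, kronecker_mulVec_kvec, k4, k4]

lemma PData.exists_quad (h2 : (2 : F) = 0) {G : Matrix ι ι F} (hG : IsUnit G) {H : Subgroup (GL ι F)} {m t : ℕ}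
    {e : ι ≃ (Fin t → Fin m)} {P : GL ι F} {ε₀ : F} {G₀ : Matrix (Fin m) (Fin m) F}
    (h : PData (RingEquiv.refl F) G H e P ε₀ G₀) (a0 : ∀ v, gf (RingEquiv.refl F) G₀ v v = 0)
    (hf : FixesGram (RingEquiv.refl F) H G) :
    ∃ Q : (ι → F) → F, IsNondegenerateQuadraticForm Q ∧ QuadraticMap.polar Q = gf (RingEquiv.refl F) G ∧
      FixesQuadForm (matrixSet H) Q ∧ ∀ x, Q (trv e P (pvec x)) = 0 := by
  obtain ⟨U, hU⟩ := exists_triangular (h.herm.symm_of_two h2) fun i => (gf_single _ _ i i).symm.trans (a0 _)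
  obtain ⟨c, hc, h1⟩ := h.gram
  have ht := h.ht
  let i0 : Fin t := ⟨0, by omega⟩
  let i1 : Fin t := ⟨1, by omega⟩
  obtain ⟨Q, k1, k2, k3⟩ := exists_quad_of_frame e P hG (M := c • pt (Function.update (fun _ => G₀) i0 U)) (by
    rw [h1, Matrix.transpose_smul, ← smul_add, pt_transpose]
    congr 1
    have e1 : (fun i => (Function.update (fun _ => G₀) i0 U i)ᵀ) = Function.update (fun _ : Fin t => G₀) i0 Uᵀ := by
      ext1 i
      by_cases hi : i = i0
      · subst hi; simp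
      · simp [hi, h.herm.symm_of_two h2]
    have := (mlin pt ins (fun _ _ => rfl)).map_update_add (fun _ : Fin t => G₀) i0 U Uᵀ
    rw [hU, Function.update_eq_self] at this
    rw [e1]
    exact this.symm)
  have k4 : ∀ x, Q (trv e P (pvec x)) = 0 := fun x => by
    rw [k3, gf_smul, gf_pt_pvec, Finset.prod_eq_zero (Finset.mem_univ i1), mul_zero]
    rw [Function.update_of_ne (by simp [i0, i1]), a0]
  refine ⟨Q, k1, k2, fixesQuad_of_basis e P k1.smul (by rw [k2, ← fixesGram_iff]; exact hf) ?_, k4⟩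
  intro g hg a
  obtain ⟨gs, s, rfl⟩ := (mem_tensorWreathSubgroup e P g).1 (h.le hg)
  rw [coe_trGL, tr_mulVec, ← pvec_single, Units.val_mul, ← Matrix.mulVec_mulVec, coe_fpGL, fp_mulVec_pvec, coe_ptGL,
    pt_mulVec_pvec, k4, k4]

end Cfsg.Agent.Asch
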