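import Cfsg.Agent.Asch.FormField

/-! Tensor decompositions relative to a form. -/

set_option autoImplicit false
set_option linter.unusedSimpArgs false
set_option linter.unusedSectionVars false

namespace Cfsg.Agent.Asch

open scoped MatrixGroups Matrix Kronecker
open Cfsg Cfsg.Geo

variable {ι : Type} [Fintype ι] [DecidableEq ι] {F : Type*} [Field F]

section frames
variable {κ β : Type} [Fintype κ] [DecidableEq κ] [Fintype β] [DecidableEq β]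

lemma adj_tr {σ : F ≃+* F} {G : Matrix ι ι F} (hG : IsUnit G) (e : ι ≃ κ) (P : GL ι F) (x : Matrix κ κ F) :
    adj σ G (tr e P x) = tr e P (adj σ (pbG σ e P G) x) :=
  adj_unique hG fun u v => by
    obtain ⟨u, rfl⟩ := trv_surjective e P u
    obtain ⟨v, rfl⟩ := trv_surjective e P v
    rw [tr_mulVec, tr_mulVec, gf_trv, gf_trv, gf_adj ((isUnit_pbG_iff σ e P G).2 hG)]

/-- change of frame -/
def fr (e : ι ≃ κ) (P : GL ι F) (Q : GL κ F) : GL ι F := trGL e P Q * P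

lemma trv_fr (e : ι ≃ κ) (P : GL ι F) (Q : GL κ F) (x : κ → F) :
    trv e (fr e P Q) x = trv e P ((Q : Matrix κ κ F) *ᵥ x) := by
  rw [← tr_mulVec, trv, trv, fr, Units.val_mul, ← Matrix.mulVec_mulVec, coe_trGL]

lemma pbG_fr (σ : F ≃+* F) (e : ι ≃ κ) (P : GL ι F) (Q : GL κ F) (G : Matrix ι ι F) :
    pbG σ e (fr e P Q) G = (Q : Matrix κ κ F)ᵀ * pbG σ e P G * (Q : Matrix κ κ F).map σ :=
  gf_ext (σ := σ) fun u v => by rw [← gf_trv, trv_fr, trv_fr, gf_trv, gf_mulVec]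

lemma tr_fr (e : ι ≃ κ) (P : GL ι F) (Q : GL κ F) (y : Matrix κ κ F) : tr e (fr e P Q) y = tr e P (cj Q y) := by
  rw [← cj_trGL, fr, tr_apply, tr_apply, cj_mul]

lemma trGL_fr (e : ι ≃ κ) (P : GL ι F) (Q : GL κ F) (y : GL κ F) :
    trGL e (fr e P Q) y = trGL e P (Q * y * Q⁻¹) :=
  Units.ext (by rw [coe_trGL, coe_trGL, tr_fr, cj_coe])

lemma pbG_refl (σ : F ≃+* F) (P : GL ι F) (G : Matrix ι ι F) :
    pbG σ (Equiv.refl ι) P G = (P : Matrix ι ι F)ᵀ * G * (P : Matrix ι ι F).map σ := rfl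

lemma tr_refl (P : GL ι F) (y : Matrix ι ι F) : tr (Equiv.refl ι) P y = cj P y := rfl

/-- Kronecker product of invertible matrices -/
def kronGL : GL κ F × GL β F →* GL (κ × β) F where
  toFun p := ⟨(p.1 : Matrix κ κ F) ⊗ₖ (p.2 : Matrix β β F),
    ((p.1⁻¹ : GL κ F) : Matrix κ κ F) ⊗ₖ ((p.2⁻¹ : GL β F) : Matrix β β F),
    by rw [← Matrix.mul_kronecker_mul]; simp, by rw [← Matrix.mul_kronecker_mul]; simp⟩
  map_one' := Units.ext (by simp)
  map_mul' p q := Units.ext (by simp [Matrix.mul_kronecker_mul])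

lemma coe_kronGL (x : GL κ F) (y : GL β F) :
    ((kronGL (x, y) : GL (κ × β) F) : Matrix (κ × β) (κ × β) F) = (x : Matrix κ κ F) ⊗ₖ (y : Matrix β β F) := rfl

lemma cj_kronGL (x : GL κ F) (y : GL β F) (u : Matrix κ κ F) (v : Matrix β β F) :
    cj (kronGL (x, y)) (u ⊗ₖ v) = cj x u ⊗ₖ cj y v := by
  rw [cj_apply, cj_apply, cj_apply, Matrix.mul_kronecker_mul, Matrix.mul_kronecker_mul]
  rfl

lemma kronecker_map (σ : F ≃+* F) (x : Matrix κ κ F) (y : Matrix β β F) : (x ⊗ₖ y).map σ = x.map σ ⊗ₖ y.map σ := by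
  ext ⟨i, j⟩ ⟨k, l⟩; simp

lemma kronecker_transpose (x : Matrix κ κ F) (y : Matrix β β F) : (x ⊗ₖ y)ᵀ = xᵀ ⊗ₖ yᵀ := by
  ext ⟨i, j⟩ ⟨k, l⟩; simp

lemma isUnit_kronecker {x : Matrix κ κ F} {y : Matrix β β F} (hx : IsUnit x) (hy : IsUnit y) : IsUnit (x ⊗ₖ y) :=
  (kronGL (hx.unit, hy.unit)).isUnit

lemma adj_kronecker {σ : F ≃+* F} {G₁ : Matrix κ κ F} {G₂ : Matrix β β F} (h1 : IsUnit G₁) (h2 : IsUnit G₂)
    (x : Matrix κ κ F) (y : Matrix β β F) : adj σ (G₁ ⊗ₖ G₂) (x ⊗ₖ y) = adj σ G₁ x ⊗ₖ adj σ G₂ y := by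
  rw [adj_eq_iff (isUnit_kronecker h1 h2), kronecker_map, kronecker_transpose, ← Matrix.mul_kronecker_mul,
    ← Matrix.mul_kronecker_mul, mul_adj_map h1, mul_adj_map h2]

lemma kronecker_left_cancel [Nonempty κ] {x : Matrix κ κ F} (hx : IsUnit x) {y z : Matrix β β F}
    (h : x ⊗ₖ y = x ⊗ₖ z) : y = z := by
  rw [← lk_mul_rk, ← lk_mul_rk] at h
  exact rk_injective ((hx.map (lk β)).mul_left_cancel h)

lemma exists_kronecker_of_star [Nonempty κ] [Nonempty β] {σ : F ≃+* F} {ε : F} {Γ : Matrix (κ × β) (κ × β) F}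
    (hΓ : Herm σ ε Γ) (h : ∀ x, ∃ x', adj σ Γ (lk β x) = lk β x') :
    ∃ (ε₁ : F) (G₁ : Matrix κ κ F) (G₂ : Matrix β β F), Herm σ ε₁ G₁ ∧ Herm σ (ε * ε₁) G₂ ∧
      (σ ≠ RingEquiv.refl F → ε₁ = 1) ∧ Γ = G₁ ⊗ₖ G₂ := by
  obtain ⟨a, b, hab⟩ := exists_kronecker_of_norm (hΓ.unit.unit⁻¹) fun x => by
    obtain ⟨x', hx'⟩ := h xᵀ
    rw [adj_eq_iff hΓ.unit, lk_apply, lk_apply, kronecker_transpose, kronecker_map, Matrix.transpose_transpose,
      Matrix.transpose_one, map_one_equiv] at hx'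
    refine ⟨x'.map σ, ?_⟩
    rw [cj_apply, inv_inv, IsUnit.unit_spec, mul_assoc, lk_apply, hx', ← mul_assoc, IsUnit.val_inv_mul, one_mul,
      lk_apply]
  have h1 : Γ = ((a⁻¹ : GL κ F) : Matrix κ κ F) ⊗ₖ ((b⁻¹ : GL β F) : Matrix β β F) := by
    have : hΓ.unit.unit⁻¹ = kronGL (a, b) := Units.ext hab
    rw [← coe_kronGL, ← Prod.inv_mk, map_inv, ← this, inv_inv, IsUnit.unit_spec]
  obtain ⟨c, hc⟩ := exists_star_eq_smul hΓ.invol (a⁻¹).isUnit fun x => lk_injective (β := β) (by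
    have := hΓ.adj_adj (lk β x)
    rwa [h1, lk_apply, adj_kronecker (a⁻¹).isUnit (b⁻¹).isUnit, adj_kronecker (a⁻¹).isUnit (b⁻¹).isUnit,
      adj_one (b⁻¹).isUnit, adj_one (b⁻¹).isUnit] at this)
  obtain ⟨d, ε₁, hd, hG₁, hε⟩ := exists_herm_of_star hΓ.invol (a⁻¹).isUnit hc
  have h2 : Γ = (d • ((a⁻¹ : GL κ F) : Matrix κ κ F)) ⊗ₖ (d⁻¹ • ((b⁻¹ : GL β F) : Matrix β β F)) := by
    rw [Matrix.smul_kronecker, Matrix.kronecker_smul, smul_smul, mul_inv_cancel₀ hd, one_smul, h1]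
  refine ⟨ε₁, _, _, hG₁, ⟨hΓ.invol, isUnit_smul_of_ne_zero (inv_ne_zero hd) (b⁻¹).isUnit, ?_, ?_⟩, hε, h2⟩
  · have := hΓ.star
    rw [h2, kronecker_map, kronecker_transpose, hG₁.star] at this
    apply kronecker_left_cancel hG₁.unit
    rw [Matrix.kronecker_smul _ _ (d⁻¹ • _), mul_comm, mul_smul, ← this, ← Matrix.smul_kronecker, smul_smul,
      hG₁.eps_mul, one_smul]
  · rcases hΓ.eps with rfl | rfl <;> rcases hG₁.eps with rfl | rfl <;> simp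

end frames

/-- tensor decomposition of the form preserved by `H` -/
structure TData (σ : F ≃+* F) (ε : F) (G : Matrix ι ι F) (H : Subgroup (GL ι F)) {a b : ℕ} (e : ι ≃ Fin a × Fin b)
    (P : GL ι F) (ε₁ ε₂ : F) (G₁ : Matrix (Fin a) (Fin a) F) (G₂ : Matrix (Fin b) (Fin b) F) : Prop where
  ha : 2 ≤ a
  hb : 2 ≤ b
  herm : Herm σ ε G
  h₁ : Herm σ ε₁ G₁
  h₂ : Herm σ ε₂ G₂
  eps : ε = ε₁ * ε₂
  eps₁ : σ ≠ RingEquiv.refl F → ε₁ = 1
  eps₂ : σ ≠ RingEquiv.refl F → ε₂ = 1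
  gram : pbG σ e P G = G₁ ⊗ₖ G₂
  le : H ≤ tensorProductSubgroup a b e P

lemma mem_tensorProductSubgroup' {a b : ℕ} (e : ι ≃ Fin a × Fin b) (P : GL ι F) (g : GL ι F) :
    g ∈ tensorProductSubgroup a b e P ↔ ∃ x y, g = trGL e P (kronGL (x, y)) := by
  rw [mem_tensorProductSubgroup]
  exact exists_congr fun x => exists_congr fun y => by rw [Units.ext_iff]; rfl

lemma Herm.exists_tData {σ : F ≃+* F} {ε : F} {G : Matrix ι ι F} (hG : Herm σ ε G) (hε : σ ≠ RingEquiv.refl F → ε = 1)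
    {H : Subgroup (GL ι F)} {a b : ℕ} {e : ι ≃ Fin a × Fin b} {P : GL ι F} (ha : 2 ≤ a) (hb : 2 ≤ b)
    {A : Subalgebra F (Matrix ι ι F)} (hst : StarC σ G A) (hA : ∀ x, x ∈ A ↔ ∃ y, x = tr e P (lk (Fin b) y))
    (hle : H ≤ tensorProductSubgroup a b e P) : ∃ ε₁ ε₂ G₁ G₂, TData σ ε G H e P ε₁ ε₂ G₁ G₂ := by
  haveI : Nonempty (Fin a) := ⟨⟨0, by omega⟩⟩
  haveI : Nonempty (Fin b) := ⟨⟨0, by omega⟩⟩
  obtain ⟨ε₁, G₁, G₂, h1, h2, h3, h4⟩ := exists_kronecker_of_star (hG.pbG e P) fun x => by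
    obtain ⟨y, hy⟩ := (hA _).1 (hst _ ((hA _).2 ⟨x, rfl⟩))
    rw [adj_tr hG.unit] at hy
    exact ⟨y, (tr e P).injective hy⟩
  exact ⟨ε₁, ε * ε₁, G₁, G₂, ha, hb, hG, h1, h2, by rw [mul_comm ε, ← mul_assoc, h1.eps_mul, one_mul], h3,
    fun h => by rw [hε h, h3 h, one_mul], h4, hle⟩

/-- the projection onto the right tensor factor -/
def prj {a b : ℕ} (e : ι ≃ Fin a × Fin b) (P : GL ι F) (H : Subgroup (GL ι F)) : Subgroup (GL (Fin b) F) :=
  (H.comap ((trGL e P).toMonoidHom.comp kronGL)).map (MonoidHom.snd _ _)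

lemma mem_prj {a b : ℕ} {e : ι ≃ Fin a × Fin b} {P : GL ι F} {H : Subgroup (GL ι F)} {y : GL (Fin b) F} :
    y ∈ prj e P H ↔ ∃ x, trGL e P (kronGL (x, y)) ∈ H :=
  ⟨by rintro ⟨⟨x, y⟩, h, rfl⟩; exact ⟨x, h⟩, fun ⟨x, h⟩ => ⟨(x, y), h, rfl⟩⟩

/-- the right tensor factor embedding -/
def rkt {a b : ℕ} (e : ι ≃ Fin a × Fin b) (P : GL ι F) : Matrix (Fin b) (Fin b) F →ₐ[F] Matrix ι ι F :=
  (tr e P).toAlgHom.comp (rk (Fin a))

lemma rkt_apply {a b : ℕ} (e : ι ≃ Fin a × Fin b) (P : GL ι F) (y : Matrix (Fin b) (Fin b) F) :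
    rkt e P y = tr e P ((1 : Matrix (Fin a) (Fin a) F) ⊗ₖ y) := rfl

lemma cj_rkt {a b : ℕ} (e : ι ≃ Fin a × Fin b) (P : GL ι F) (x : GL (Fin a) F) (y : GL (Fin b) F)
    (z : Matrix (Fin b) (Fin b) F) : cj (trGL e P (kronGL (x, y))) (rkt e P z) = rkt e P (cj y z) := by
  rw [rkt_apply, rkt_apply, cj_trGL, cj_kronGL, map_one]

lemma trGL_kronGL_swap {a b : ℕ} (e : ι ≃ Fin a × Fin b) (P : GL ι F) (x : GL (Fin a) F) (y : GL (Fin b) F) :
    trGL (e.trans (Equiv.prodComm _ _)) P (kronGL (y, x)) = trGL e P (kronGL (x, y)) :=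
  Units.ext (tr_swap e P _ _)

lemma not_prime_of_equiv_prod {a b : ℕ} (e : ι ≃ Fin a × Fin b) (ha : 2 ≤ a) (hb : 2 ≤ b) :
    ¬ (Fintype.card ι).Prime := by
  rw [card_eq_of_equiv_prod e]
  exact Nat.not_prime_mul (by omega) (by omega)

namespace TData

variable {σ : F ≃+* F} {ε : F} {G : Matrix ι ι F} {H : Subgroup (GL ι F)} {a b : ℕ} {e : ι ≃ Fin a × Fin b}
  {P : GL ι F} {ε₁ ε₂ : F} {G₁ : Matrix (Fin a) (Fin a) F} {G₂ : Matrix (Fin b) (Fin b) F}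

lemma swap (h : TData σ ε G H e P ε₁ ε₂ G₁ G₂) : TData σ ε G H (e.trans (Equiv.prodComm _ _)) P ε₂ ε₁ G₂ G₁ where
  ha := h.hb
  hb := h.ha
  herm := h.herm
  h₁ := h.h₂
  h₂ := h.h₁
  eps := by rw [h.eps, mul_comm]
  eps₁ := h.eps₂
  eps₂ := h.eps₁
  gram := by
    rw [pbG_trans, h.gram]
    ext ⟨i, j⟩ ⟨k, l⟩
    simp [mul_comm]
  le := by rw [tensorProductSubgroup_swap]; exact h.le

lemma card_eq (_ : TData σ ε G H e P ε₁ ε₂ G₁ G₂) : Fintype.card ι = a * b := card_eq_of_equiv_prod e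

lemma nonempty (h : TData σ ε G H e P ε₁ ε₂ G₁ G₂) : Nonempty ι := by
  rw [← Fintype.card_pos_iff, h.card_eq]
  exact Nat.mul_pos (by have := h.ha; omega) (by have := h.hb; omega)

lemma rkt_injective (h : TData σ ε G H e P ε₁ ε₂ G₁ G₂) : Function.Injective (rkt e P : _ → Matrix ι ι F) := by
  haveI : Nonempty (Fin a) := ⟨⟨0, by have := h.ha; omega⟩⟩
  exact (tr e P).injective.comp rk_injective

lemma adj_rkt (h : TData σ ε G H e P ε₁ ε₂ G₁ G₂) (z : Matrix (Fin b) (Fin b) F) :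
    adj σ G (rkt e P z) = rkt e P (adj σ G₂ z) := by
  rw [rkt_apply, adj_tr h.herm.unit, h.gram, adj_kronecker h.h₁.unit h.h₂.unit, adj_one h.h₁.unit, rkt_apply]

lemma exists_eq (h : TData σ ε G H e P ε₁ ε₂ G₁ G₂) {g : GL ι F} (hg : g ∈ H) :
    ∃ x, ∃ y ∈ prj e P H, g = trGL e P (kronGL (x, y)) := by
  obtain ⟨x, y, rfl⟩ := (mem_tensorProductSubgroup' e P g).1 (h.le hg)
  exact ⟨x, y, mem_prj.2 ⟨x, hg⟩, rfl⟩

lemma prj_sim (h : TData σ ε G H e P ε₁ ε₂ G₁ G₂) (hs : H ≤ similarityGroup (gf σ G)) :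
    prj e P H ≤ similarityGroup (gf σ G₂) := by
  intro y hy
  obtain ⟨x, hx⟩ := mem_prj.1 hy
  refine mem_similarityGroup_of_adj_cj h.h₂.unit fun z => h.rkt_injective ?_
  rw [← h.adj_rkt, ← cj_rkt e P x, ← cj_rkt e P x, adj_cj h.herm.unit (hs hx), h.adj_rkt]

lemma prj_irred (h : TData σ ε G H e P ε₁ ε₂ G₁ G₂) (hH : Irred H) : Irred (prj e P H) := by
  intro W hW
  let U : Submodule F (ι → F) :=
    { carrier := {v | ∃ u : Fin a × Fin b → F, (∀ i, (fun j => u (i, j)) ∈ W) ∧ v = trv e P u}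
      add_mem' := by
        rintro _ _ ⟨u, hu, rfl⟩ ⟨v, hv, rfl⟩
        exact ⟨u + v, fun i => W.add_mem (hu i) (hv i), (trv_add e P u v).symm⟩
      zero_mem' := ⟨0, fun _ => W.zero_mem, by simpa using (trv_smul e P 0 0).symm⟩
      smul_mem' := by
        rintro c _ ⟨u, hu, rfl⟩
        exact ⟨c • u, fun i => W.smul_mem c (hu i), (trv_smul e P c u).symm⟩ }
  let i0 : Fin a := ⟨0, by have := h.ha; omega⟩
  rcases hH U (by
    rintro g hg _ ⟨u, hu, rfl⟩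
    obtain ⟨x, y, hy, rfl⟩ := h.exists_eq hg
    refine ⟨_, fun i => ?_, tr_mulVec e P _ u⟩
    have : (fun j => (((kronGL (x, y) : GL (Fin a × Fin b) F) : Matrix _ _ F) *ᵥ u) (i, j)) =
        ∑ k, (x : Matrix (Fin a) (Fin a) F) i k • ((y : Matrix (Fin b) (Fin b) F) *ᵥ fun j => u (k, j)) := by
      ext j
      simp [coe_kronGL, Matrix.mulVec, dotProduct, Fintype.sum_prod_type, Finset.mul_sum, mul_assoc]
    rw [this]
    exact W.sum_mem fun k _ => W.smul_mem _ (hW y hy _ (hu k))) with hU | hU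
  · left
    rw [eq_bot_iff]
    intro w hw
    have : trv e P (fun p => w p.2) ∈ U := ⟨_, fun _ => hw, rfl⟩
    rw [hU, Submodule.mem_bot, ← zero_smul F (trv e P 0), ← trv_smul] at this
    ext j
    simpa using congrFun (trv_injective e P this) (i0, j)
  · right
    rw [eq_top_iff]
    intro w _
    obtain ⟨u, hu, h'⟩ : trv e P (fun p => w p.2) ∈ U := hU ▸ Submodule.mem_top
    have := hu i0
    rwa [← trv_injective e P h'] at this

lemma commCase [Fintype F] (h : TData σ ε G H e P ε₁ ε₂ G₁ G₂) (hH : Irred H) (hs : H ≤ similarityGroup (gf σ G))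
    {K : Subalgebra F (Matrix (Fin b) (Fin b) F)} (hK : Norms (prj e P H) (K : Set (Matrix (Fin b) (Fin b) F)))
    (hc : ∀ x ∈ K, ∀ y ∈ K, x * y = y * x) (hst : StarC σ G₂ K) (hns : ∃ z ∈ K, ∀ c : F, z ≠ c • 1) :
    CommCase σ G H := by
  haveI := h.nonempty
  refine h.herm.commCase hH hs (K := K.map (rkt e P)) ?_ ?_ ?_ ?_
    fun hp => absurd hp (not_prime_of_equiv_prod e h.ha h.hb)
  · rintro g hg _ ⟨z, hz, rfl⟩
    obtain ⟨x, y, hy, rfl⟩ := h.exists_eq hg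
    exact ⟨_, hK y hy z hz, (cj_rkt e P x y z).symm⟩
  · rintro _ ⟨x, hx, rfl⟩ _ ⟨y, hy, rfl⟩
    simp only [RingHom.coe_coe, AlgHom.toRingHom_eq_coe, ← map_mul, hc x hx y hy]
  · rintro _ ⟨x, hx, rfl⟩
    exact ⟨_, hst x hx, (h.adj_rkt x).symm⟩
  · obtain ⟨z, hz, hz'⟩ := hns
    exact ⟨_, ⟨z, hz, rfl⟩, fun c hc => hz' c (h.rkt_injective (by rw [map_smul, map_one]; exact hc))⟩

end TData

lemma adjoin_comm (z : Matrix ι ι F) : ∀ x ∈ Algebra.adjoin F {z}, ∀ y ∈ Algebra.adjoin F {z}, x * y = y * x :=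
  fun _ hx _ hy => (Algebra.commute_of_mem_adjoin_singleton_of_commute hx
    (Algebra.commute_of_mem_adjoin_singleton_of_commute hy (Commute.refl z)).symm).symm.eq

lemma norms_adjoin {H : Subgroup (GL ι F)} {S : Set (Matrix ι ι F)} (h : ∀ g ∈ H, ∀ z ∈ S, cj g z ∈ Algebra.adjoin F S) :
    Norms H (Algebra.adjoin F S : Set (Matrix ι ι F)) := fun g hg x hx => by
  have : (Algebra.adjoin F S).map (cj g).toAlgHom ≤ Algebra.adjoin F S := by
    rw [AlgHom.map_adjoin, Algebra.adjoin_le_iff]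
    rintro _ ⟨z, hz, rfl⟩
    exact h g hg z hz
  exact this ⟨x, hx, rfl⟩

lemma starC_adjoin {σ : F ≃+* F} {G : Matrix ι ι F} (hG : IsUnit G) {S : Set (Matrix ι ι F)}
    (h : ∀ z ∈ S, adj σ G z ∈ Algebra.adjoin F S) : StarC σ G (Algebra.adjoin F S) := fun x hx => by
  induction hx using Algebra.adjoin_induction with
  | mem x hx => exact h x hx
  | algebraMap c =>
    rw [Algebra.algebraMap_eq_smul_one, adj_smul_one hG]
    exact Subalgebra.smul_mem _ (one_mem _) _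
  | add x y _ _ hx hy => rw [adj_add]; exact add_mem hx hy
  | mul x y _ _ hx hy => rw [adj_mul hG]; exact mul_mem hy hx

lemma exists_smul_J2 (h2 : (2 : F) ≠ 0) {x : Matrix (Fin 2) (Fin 2) F} (hx : xᵀ = -x) : ∃ c : F, x = c • J2 F := by
  have h : ∀ i j, x j i = -x i j := fun i j => congrFun (congrFun hx i) j
  have h0 : ∀ i, x i i = 0 := fun i => mul_left_cancel₀ h2 (by linear_combination h i i)
  refine ⟨x 0 1, ?_⟩
  ext i j
  fin_cases i <;> fin_cases j <;> simp [J2, h0, h 0 1]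

/-- a two-dimensional orthogonal factor gives a normalised commutative algebra -/
lemma TData.commCase_of_two [Fintype F] (h2 : (2 : F) ≠ 0) {ε : F} {G : Matrix ι ι F} {H : Subgroup (GL ι F)} {a : ℕ}
    {e : ι ≃ Fin a × Fin 2} {P : GL ι F} {ε₁ : F} {G₁ : Matrix (Fin a) (Fin a) F} {G₂ : Matrix (Fin 2) (Fin 2) F}
    (h : TData (RingEquiv.refl F) ε G H e P ε₁ 1 G₁ G₂) (hH : Irred H)
    (hs : H ≤ similarityGroup (gf (RingEquiv.refl F) G)) : CommCase (RingEquiv.refl F) G H := by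
  have hu := h.h₂.unit
  have key : ∀ z, adj (RingEquiv.refl F) G₂ z = -z ↔ (G₂ * z)ᵀ = -(G₂ * z) := fun z => by
    rw [adj_eq_iff hu, map_refl, Matrix.transpose_mul, h.h₂.transpose_one, mul_neg]
  set z : Matrix (Fin 2) (Fin 2) F := ((hu.unit⁻¹ : GL (Fin 2) F) : Matrix _ _ F) * J2 F with hz
  have hz1 : G₂ * z = J2 F := by rw [hz, ← mul_assoc, IsUnit.mul_val_inv, one_mul]
  have hz2 : adj (RingEquiv.refl F) G₂ z = -z := by rw [key, hz1, J2_transpose]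
  have hzm : z ∈ Algebra.adjoin F {z} := Algebra.self_mem_adjoin_singleton F z
  refine h.commCase hH hs (K := Algebra.adjoin F {z}) (norms_adjoin ?_) (adjoin_comm z) (starC_adjoin hu ?_)
    ⟨z, hzm, fun c hc => ?_⟩
  · rintro g hg _ rfl
    obtain ⟨c, hc⟩ := exists_smul_J2 h2 ((key (cj g z)).1 (by rw [adj_cj hu (h.prj_sim hs hg), hz2, map_neg]))
    rw [← hz1, ← Matrix.mul_smul] at hc
    rw [hu.mul_left_cancel hc]
    exact Subalgebra.smul_mem _ hzm c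
  · rintro _ rfl
    rw [hz2]; exact neg_mem hzm
  · rw [hc, adj_smul_one hu, ← neg_smul] at hz2
    have h3 : c = -c := smul_one_injective hz2
    have h4 : c = 0 := mul_left_cancel₀ h2 (by linear_combination h3)
    rw [hc, h4, zero_smul, mul_zero] at hz1
    exact isUnit_J2.ne_zero hz1.symm

end Cfsg.Agent.Asch
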