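import Cfsg.Agent.Asch.Sp

/-! The subgroup structure theorem for unitary groups. -/

set_option autoImplicit false
set_option linter.unusedSimpArgs false
set_option linter.unusedSectionVars false

namespace Cfsg.Agent.Asch

open scoped MatrixGroups Matrix Kronecker
open Cfsg Cfsg.Geo

variable {ι : Type} [Fintype ι] [DecidableEq ι] {F : Type*} [Field F]

/-- the cases for an irreducible group of isometries of a unitary form -/
def SUIrr [Fintype F] (σ : F ≃+* F) (G : Matrix ι ι F) (H : Subgroup (GL ι F)) : Prop :=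
  (∃ (t k : ℕ) (D : Fin t → Submodule F (ι → F)), IsNondegenerateMDecomposition (gf σ G) k D ∧
    H ≤ decompositionStabilizer D) ∨
  (∃ (k : ℕ) (D : Fin 2 → Submodule F (ι → F)), IsMDecomposition k D ∧
    (∀ i, IsTotallySingularFor (gf σ G) (D i)) ∧ H ≤ decompositionStabilizer D) ∨
  UniC5 σ G H ∨ UniC6 σ G H ∨
  (∃ (r : ℕ) (K : Subalgebra F (Matrix ι ι F)), r.Prime ∧ Odd r ∧ IsFieldSubalgebra r K ∧
    IsAdjointClosedFor (gf σ G) K ∧ H ≤ subalgebraNormalizer K) ∨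
  (∃ (n₁ n₂ : ℕ) (e : ι ≃ Fin n₁ × Fin n₂) (P : GL ι F) (G₁ : Matrix (Fin n₁) (Fin n₁) F)
    (G₂ : Matrix (Fin n₂) (Fin n₂) F), n₁ < n₂ ∧ TData σ 1 G H e P 1 1 G₁ G₂) ∨
  (∃ (k t : ℕ) (e : ι ≃ (Fin t → Fin k)) (P : GL ι F) (G₀ : Matrix (Fin k) (Fin k) F),
    3 ≤ k ∧ ¬ (Fintype.card F = 4 ∧ k = 3) ∧ PData σ G H e P 1 G₀) ∨
  InUnitaryResidualClass H

theorem su_irr_aux [Fintype F] {σ : F ≃+* F} (hne : σ ≠ RingEquiv.refl F)
    (hsm : Fintype.card F = 4 → ∀ G : Matrix (Fin 3) (Fin 3) F, Herm σ 1 G → ∀ L ≤ similarityGroup (gf σ G),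
      ⁅L, L⁆ = L → L = ⊥)
    {G : Matrix ι ι F} (hG : Herm σ 1 G) (hn : 3 ≤ Fintype.card ι) {H : Subgroup (GL ι F)} (hH : Irred H)
    (hf : FixesGram σ H G) : SUIrr σ G H := by
  haveI : Nonempty ι := Fintype.card_pos_iff.1 (by omega)
  have h5 : FormC5 σ G H → SUIrr σ G H := fun h => Or.inr (Or.inr (Or.inl (h.uni hG hne (by omega) hH hf.le_sim)))
  have hcomm : CommCase σ G H → SUIrr σ G H := by
    rintro (⟨t, k, D, h1, h2, -⟩ | ⟨k, D, ω, h1, h2, h3, -⟩ | ⟨h, -⟩ | ⟨-, r, K, h1, h2, h3, h4, h5⟩)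
    · exact Or.inl ⟨t, k, D, h1, h2⟩
    · exact Or.inr (Or.inl ⟨k, D, h1, h2, h3⟩)
    · exact absurd h hne
    · iterate 4 right
      exact Or.inl ⟨r, K, h1, h2, h3, h5.isAdjointClosedFor hG.unit, h4.le_subalgebraNormalizer⟩
  have h6 : ∀ r N R, RSat r N R → N ≤ similarityGroup (gf σ G) → GNorms H N → SUIrr σ G H := by
    intro r N R h1 h2 h3
    rcases h1.uni hG hne h2 hn h3 with h | h
    · exact h5 h
    · exact Or.inr (Or.inr (Or.inr (Or.inl h)))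
  have h7 : ∀ (k t : ℕ) (e : ι ≃ (Fin t → Fin k)) (P : GL ι F) (G₀ : Matrix (Fin k) (Fin k) F),
      ¬ (Fintype.card F = 4 ∧ k = 3) → PData σ G H e P 1 G₀ → SUIrr σ G H := by
    intro k t e P G₀ h1 h
    rcases h.hm.eq_or_lt with rfl | hk
    · exact h5 (h.formC5_two hne hf.le_sim)
    · iterate 6 right
      exact Or.inl ⟨k, t, e, P, G₀, hk, h1, h⟩
  rcases hG.structure (fun _ => rfl) hH hf (by omega) with h | ⟨a, b, e, P, ε₁, ε₂, G₁, G₂, h⟩ |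
    ⟨r, N, hN, hr⟩ | ⟨m, t, e, P, ε₀, G₀, L, h, hL, hA, hs⟩ | h | ⟨P, hP, hA⟩
  · exact hcomm h
  · obtain rfl := h.eps₁ hne
    obtain rfl := h.eps₂ hne
    rcases lt_trichotomy a b with hab | rfl | hab
    · iterate 5 right
      exact Or.inl ⟨a, b, e, P, G₁, G₂, hab, h⟩
    · by_cases hex : Fintype.card F = 4 ∧ a = 3
      · obtain ⟨h4, rfl⟩ := hex
        rcases h.both_cases hH hf.le_sim Nat.prime_three (hsm h4 _ h.h₁) (hsm h4 _ h.h₂) with h' | ⟨N, R, h1, h2, h3⟩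
        · exact hcomm h'
        · exact h6 _ N R h1 h2 h3
      obtain ⟨P₁, h1⟩ := h.h₁.exists_pbG_one hne (Equiv.refl _)
      obtain ⟨P₂, h2⟩ := h.h₂.exists_pbG_one hne (Equiv.refl _)
      have h' := h.fr P₁ P₂
      rw [h1, h2, ← one_smul F (1 : Matrix (Fin a) (Fin a) F)] at h'
      exact h7 _ _ _ _ _ hex (h'.pData (h1 ▸ h.h₁.pbG (Equiv.refl _) P₁) fun _ => rfl)
    · iterate 5 right
      exact Or.inl ⟨b, a, _, P, G₂, G₁, hab, h.swap⟩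
  · obtain ⟨R, hR⟩ := hN.exists_rSat hr (by omega)
    exact h6 r N R hR (hN.le.trans hf.le_sim) hN.norm
  · obtain rfl := h.eps hne
    refine h7 _ _ _ _ _ ?_ h
    rintro ⟨h4, rfl⟩
    exact not_absIrr_bot (by simp) (hsm h4 _ h.herm L hs hL ▸ hA)
  · exact h5 h
  · have hf' := hf.mono hP.le
    iterate 7 right
    refine ⟨P, hP, ?_, ?_⟩
    · rintro ⟨Q, hQ, h⟩
      have h1 := sesq_of_bilinear hQ.polar_bilinear
      exact hP.no_subfield _ (fixSub_ne_top hne) (hA.realisable_of_two hG.unit (h1.isUnit_gram hQ.nondegenerate) hf'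
        (fixesGram_of_fixesForm h1 (fixesForm_polar h)))
    · rintro ⟨f, hQ, h⟩
      have h1 := sesq_of_bilinear hQ.bilinear
      exact hP.no_subfield _ (fixSub_ne_top hne) (hA.realisable_of_two hG.unit (h1.isUnit_gram hQ.nondegenerate) hf'
        (fixesGram_of_fixesForm h1 h))

/-- the involution `x ↦ x ^ q` of the field with `q ^ 2` elements -/
noncomputable def qInv [Fintype F] {q : ℕ} (hF : Fintype.card F = q ^ 2) : F ≃+* F :=
  RingEquiv.ofBijective (H7.qFrob hF) (Function.Involutive.bijective (H7.qFrob_qFrob hF))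

section
variable [Fintype F] {q : ℕ} (hF : Fintype.card F = q ^ 2)

lemma qInv_apply (a : F) : qInv hF a = a ^ q := rfl

lemma coe_qInv : ⇑(qInv hF) = fun a : F => a ^ q := rfl

lemma qInv_qInv (a : F) : qInv hF (qInv hF a) = a := H7.qFrob_qFrob hF a

lemma qInv_ne : qInv hF ≠ RingEquiv.refl F := fun h => by
  obtain ⟨a, ha⟩ := H7.qFrob_ne hF
  exact ha (DFunLike.congr_fun h a)

lemma hermForm_eq (n : ℕ) : hermForm n F q = gf (qInv hF) 1 := by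
  ext u v
  rw [gf, Matrix.one_mulVec]; rfl

lemma herm_one : Herm (qInv hF) 1 (1 : Matrix ι ι F) :=
  ⟨qInv_qInv hF, isUnit_one, by rw [map_one_equiv, Matrix.transpose_one, one_smul], Or.inl rfl⟩

lemma fixesGram_of_le_GU {n : ℕ} {H : Subgroup (GL (Fin n) F)} (h : H ≤ GU n F q) : FixesGram (qInv hF) H 1 := by
  rw [fixesGram_iff, ← hermForm_eq]
  rintro _ ⟨g, hg, rfl⟩
  exact h hg

lemma le_GU_of_fixesGram {n : ℕ} {H : Subgroup (GL (Fin n) F)} (h : FixesGram (qInv hF) H 1) : H ≤ GU n F q := by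
  rw [fixesGram_iff, ← hermForm_eq] at h
  exact fun g hg => h _ (mem_matrixSet hg)

lemma Herm.isUnitaryFormPow {G : Matrix ι ι F} (h : Herm (qInv hF) 1 G) : IsUnitaryFormPow q (gf (qInv hF) G) :=
  ⟨(sesq_gf _ G).add_left, (sesq_gf _ G).smul_left, fun v w => by rw [h.gf_swap', one_mul]; rfl, h.nondeg⟩

theorem su_structure_aux
    (hsm : Fintype.card F = 4 → ∀ G : Matrix (Fin 3) (Fin 3) F, Herm (qInv hF) 1 G →
      ∀ L ≤ similarityGroup (gf (qInv hF) G), ⁅L, L⁆ = L → L = ⊥)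
    (n : ℕ) (hn : 3 ≤ n) (H : Subgroup (GL (Fin n) F)) (hH : H ≤ GU n F q) :
    (∃ M, InUnitaryClass n F q M ∧ H ≤ M) ∨ InUnitaryResidualClass H := by
  have hf := fixesGram_of_le_GU hF hH
  have hG : Herm (qInv hF) 1 (1 : Matrix (Fin n) (Fin n) F) := herm_one hF
  have hc : Fintype.card (Fin n) = n := Fintype.card_fin n
  unfold InUnitaryClass InUnitaryPartialClass
  rw [hermForm_eq hF, ← coe_qInv hF]
  by_cases hI : Irred H
  swap
  · left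
    rcases hG.reducible (hG.trVal_of_ne (qInv_ne hF)) hf.le_sim hI with ⟨W, h1, h2, h3⟩ | ⟨W, h1, h2, h3, h4⟩ |
      ⟨k, D, h1, h2, -⟩
    · exact ⟨_, Or.inl (Or.inl ⟨W, h1, h2, rfl⟩), le_inf h3 hH⟩
    · exact ⟨_, Or.inl (Or.inr (Or.inl ⟨W, h1, h2, by omega, rfl⟩)), le_inf h4 hH⟩
    · exact ⟨_, Or.inl (Or.inr (Or.inr (Or.inl ⟨2, k, D, h1, rfl⟩))), le_inf h2 hH⟩
  rcases su_irr_aux (qInv_ne hF) hsm hG (by omega) hI hf with ⟨t, k, D, h1, h⟩ | ⟨k, D, h1, h2, h⟩ |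
    (⟨F₀, r, P, h1, h2, h3, h4, h⟩ | ⟨F₀, P, h1, h2, h3, h⟩ | ⟨F₀, P, ζ, h1, h2, h3, h4, h5, h6, h⟩) |
    ⟨r, R, p, e, k, h1, h2, h3, h4, h5, h6, h, -⟩ | ⟨r, K, h1, h2, h3, h4, h⟩ | ⟨a, b, e, P, G₁, G₂, h1, h⟩ |
    ⟨k, t, e, P, G₀, h1, h2, h⟩ | h
  · exact Or.inl ⟨_, Or.inl (Or.inr (Or.inr (Or.inl ⟨t, k, D, h1, rfl⟩))), le_inf h hH⟩
  · exact Or.inl ⟨_, Or.inl (Or.inr (Or.inr (Or.inr (Or.inl
      ⟨k, D, (IsMDecomposition.two_mul_eq h1).trans hc, h1, h2, rfl⟩)))), le_inf h hH⟩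
  · exact Or.inl ⟨_, Or.inl (Or.inr (Or.inr (Or.inr (Or.inr (Or.inl ⟨F₀, r, P, h1, h2, h3, h4, rfl⟩))))),
      le_inf h hH⟩
  · exact Or.inl ⟨_, Or.inl (Or.inr (Or.inr (Or.inr (Or.inr (Or.inr (Or.inl
      ⟨F₀, P, (Nat.odd_pow_iff two_ne_zero).1 (hF ▸ h1), h2, h3, rfl⟩)))))), le_inf h hH⟩
  · exact Or.inl ⟨_, Or.inl (Or.inr (Or.inr (Or.inr (Or.inr (Or.inr (Or.inr (Or.inl
      ⟨F₀, P, ζ, hc ▸ h1, h2, h3, h4, h5, h6, rfl⟩))))))), le_inf h hH⟩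
  · exact Or.inl ⟨_, Or.inl (Or.inr (Or.inr (Or.inr (Or.inr (Or.inr (Or.inr (Or.inr
      ⟨r, R, p, e, k, h1, h2, h3, h4, h5, h6, rfl⟩))))))), le_inf h hH⟩
  · exact Or.inl ⟨_, Or.inr (Or.inl ⟨r, K, h1, h2, h3, h4, rfl⟩), le_inf h hH⟩
  · exact Or.inl ⟨_, Or.inr (Or.inr (Or.inl ⟨a, b, e, P, _, _, h.ha, h1, h.h₁.isUnitaryFormPow hF,
      h.h₂.isUnitaryFormPow hF, h.isTensorFormStructure, rfl⟩)), le_inf h.le hH⟩
  · exact Or.inl ⟨_, Or.inr (Or.inr (Or.inr ⟨k, t, e, P, _, h1, h.ht, fun h' => h2 ⟨by rw [hF, h'.1]; rfl, h'.2⟩,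
      h.herm.isUnitaryFormPow hF, h.isTensorPowerFormStructure, rfl⟩)), le_inf h.le hH⟩
  · exact Or.inr h

end

end Cfsg.Agent.Asch
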