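import Cfsg.Agent.Asch.FormMain

/-! The subgroup structure theorem for symplectic groups. -/

set_option autoImplicit false
set_option linter.unusedSimpArgs false
set_option linter.unusedSectionVars false

namespace Cfsg.Agent.Asch

open scoped MatrixGroups Matrix Kronecker
open Cfsg Cfsg.Geo

variable {ι : Type} [Fintype ι] [DecidableEq ι] {F : Type*} [Field F]

lemma two_eq_zero_of_not_odd [Fintype F] (h : ¬ Odd (Fintype.card F)) : (2 : F) = 0 := by
  by_contra h'; exact h (odd_card_iff.2 h')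

lemma Herm.one_of_two (h2 : (2 : F) = 0) {ε : F} {G : Matrix ι ι F} (h : Herm (RingEquiv.refl F) ε G) :
    Herm (RingEquiv.refl F) 1 G := herm_of_symm h.unit (h.symm_of_two h2)

lemma le_quadSim {H : Subgroup (GL ι F)} {Q : (ι → F) → F} (h : FixesQuadForm (matrixSet H) Q) :
    H ≤ quadSimilarityGroup Q := fun g hg => ⟨1, fun v => by rw [h _ (mem_matrixSet hg), Units.val_one, one_mul]⟩

lemma IsMDecomposition.two_mul_eq {m : ℕ} {D : Fin 2 → Submodule F (ι → F)} (h : IsMDecomposition m D) :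
    2 * m = Fintype.card ι := by
  have h1 : D 0 ⊔ D 1 = ⊤ := by
    rw [eq_top_iff, ← h.iSup_eq_top]
    exact iSup_le fun i => by fin_cases i; exacts [le_sup_left, le_sup_right]
  have h2 : D 0 ⊓ D 1 = ⊥ := (h.indep.pairwiseDisjoint (by simp)).eq_bot
  have := Submodule.finrank_sup_add_finrank_inf_eq (D 0) (D 1)
  rw [h1, h2, h.finrank_eq, h.finrank_eq, finrank_top, finrank_bot, Module.finrank_fintype_fun_eq_card] at this
  omega

lemma not_absIrr_bot (hn : 2 ≤ Fintype.card ι) : ¬ AbsIrr (⊥ : Subgroup (GL ι F)) :=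
  fun h => not_le_scalars_of_irred h.irred hn bot_le

/-- no non-degenerate unitary form is fixed by a residual core fixing a bilinear form -/
lemma IsResidualCore.no_unitary [Finite F] {H P : Subgroup (GL ι F)} (h : IsResidualCore H P) (hA : AbsIrr P)
    {G : Matrix ι ι F} (hG : IsUnit G) (hf : FixesGram (RingEquiv.refl F) P G) :
    ¬ ∃ (σ : F ≃+* F) (f : (ι → F) → (ι → F) → F), IsUnitaryForm σ f ∧ FixesForm (matrixSet P) f := by
  rintro ⟨σ, f, h1, h2⟩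
  have h3 := sesq_of_unitary h1
  exact h.no_subfield _ (fixSub_ne_top h1.ne_refl)
    (hA.realisable_of_two (h3.isUnit_gram h1.nondegenerate) hG (fixesGram_of_fixesForm h3 h2) hf)

/-- the cases for an irreducible group of isometries of a symplectic form -/
def SpIrr [Fintype F] (f : (ι → F) → (ι → F) → F) (H : Subgroup (GL ι F)) : Prop :=
  (∃ (t k : ℕ) (D : Fin t → Submodule F (ι → F)), IsNondegenerateMDecomposition f k D ∧
    H ≤ decompositionStabilizer D) ∨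
  (∃ (m : ℕ) (D : Fin 2 → Submodule F (ι → F)), Odd (Fintype.card F) ∧ IsMDecomposition m D ∧
    (∀ i, IsTotallySingularFor f (D i)) ∧ H ≤ decompositionStabilizer D) ∨
  (∃ (F₀ : Subfield F) (r : ℕ) (P : GL ι F) (ζ : F), r.Prime ∧ Fintype.card F = Nat.card F₀ ^ r ∧ ζ ≠ 0 ∧
    IsFormRationalStructure f F₀ ζ P ∧ H ≤ subfieldSubgroup F₀ P) ∨
  (∃ (R : Subgroup (GL ι F)) (p k : ℕ), IsSymplecticTypeGroup 2 R ∧
    ActsAbsolutelyIrreducibly (matrixSet R) ∧ R ≤ similarityGroup f ∧ p.Prime ∧ Odd p ∧ Fintype.card F = p ∧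
    Nat.card R = 2 ^ (1 + 2 * k) ∧ Nat.card (Subgroup.center R) = 2 ∧ IsOfMinusType k R ∧
    H ≤ subgroupNormalizer R ∧ RData 2 R ∧ R ≤ H ∧ Fintype.card ι = 2 ^ k) ∨
  (∃ Q : (ι → F) → F, ¬ Odd (Fintype.card F) ∧ IsNondegenerateQuadraticForm Q ∧
    (∀ u v, QuadraticMap.polar Q u v = f u v) ∧ H ≤ quadSimilarityGroup Q) ∨
  (∃ (r : ℕ) (K : Subalgebra F (Matrix ι ι F)), r.Prime ∧ IsFieldSubalgebra r K ∧
    IsSelfAdjointFor f K ∧ (∀ k ∈ K, ∀ v, f (k *ᵥ v) v = 0) ∧ H ≤ subalgebraNormalizer K) ∨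
  (∃ K : Subalgebra F (Matrix ι ι F), Odd (Fintype.card F) ∧ IsFieldSubalgebra 2 K ∧
    IsAdjointClosedFor f K ∧ ¬ IsSelfAdjointFor f K ∧ H ≤ subalgebraNormalizer K) ∨
  (∃ (n₁ n₂ : ℕ) (e : ι ≃ Fin n₁ × Fin n₂) (P : GL ι F)
    (f₁ : (Fin n₁ → F) → (Fin n₁ → F) → F) (f₂ : (Fin n₂ → F) → (Fin n₂ → F) → F),
    Odd (Fintype.card F) ∧ 3 ≤ n₂ ∧ IsSymplecticForm f₁ ∧ IsSymmetricForm f₂ ∧
    IsTensorFormStructure id f f₁ f₂ e P ∧ H ≤ tensorProductSubgroup n₁ n₂ e P) ∨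
  (∃ (k t : ℕ) (e : ι ≃ (Fin t → Fin k)) (P : GL ι F) (f₁ : (Fin k → F) → (Fin k → F) → F),
    Odd (Fintype.card F) ∧ Odd t ∧ 3 ≤ t ∧ ¬ (Fintype.card F = 3 ∧ k = 2) ∧ IsSymplecticForm f₁ ∧
    IsTensorPowerFormStructure id f f₁ e P ∧ H ≤ tensorWreathSubgroup k t e P) ∨
  InSymplecticResidualClass H

theorem sp_irr_aux [Fintype F]
    (hsm : Fintype.card F = 3 → ∀ L : Subgroup (GL (Fin 2) F), ⁅L, L⁆ = L → L = ⊥)
    {G : Matrix ι ι F} (hG : Herm (RingEquiv.refl F) (-1) G) (halt : ∀ v, gf (RingEquiv.refl F) G v v = 0)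
    (hn : 3 ≤ Fintype.card ι) {H : Subgroup (GL ι F)} (hH : Irred H) (hf : FixesGram (RingEquiv.refl F) H G) :
    SpIrr (gf (RingEquiv.refl F) G) H := by
  haveI : Nonempty ι := Fintype.card_pos_iff.1 (by omega)
  have h8 : ¬ Odd (Fintype.card F) → ∀ Q : (ι → F) → F, IsNondegenerateQuadraticForm Q →
      QuadraticMap.polar Q = gf (RingEquiv.refl F) G → FixesQuadForm (matrixSet H) Q →
      SpIrr (gf (RingEquiv.refl F) G) H := fun h Q h1 h2 h3 =>
    Or.inr (Or.inr (Or.inr (Or.inr (Or.inl ⟨Q, h, h1, fun u v => by rw [h2], le_quadSim h3⟩))))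
  have h5 : FormC5 (RingEquiv.refl F) G H → SpIrr (gf (RingEquiv.refl F) G) H := by
    rintro ⟨F₁, r, P, ζ, h1, h2, h3, h4, h5⟩
    exact Or.inr (Or.inr (Or.inl ⟨F₁, r, P, ζ, h1, h2, h3, isFormRationalStructure_of_over h4, h5⟩))
  have hcomm : CommCase (RingEquiv.refl F) G H → SpIrr (gf (RingEquiv.refl F) G) H := by
    rintro (⟨t, k, D, h1, h2, -⟩ | ⟨k, D, ω, h1, h2, h3, h4, h5, -⟩ | ⟨-, ⟨r, K, h1, -, h2, h3, h4⟩ | ⟨K, h1, h2, h3, h4⟩⟩ |
      ⟨h, -⟩)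
    · exact Or.inl ⟨t, k, D, h1, h2⟩
    · by_cases hodd : Odd (Fintype.card F)
      · exact Or.inr (Or.inl ⟨k, D, hodd, h1, h2, h3⟩)
      · obtain ⟨k1, k2, k3⟩ := omega_quad (hG.one_of_two (two_eq_zero_of_not_odd hodd)) hf h4 h5
        exact h8 hodd _ k1 k2 k3
    · iterate 5 right
      exact Or.inl ⟨r, K, h1, h2, (isSelfAdjointFor_iff hG.unit).2 h4,
        fun k hk v => sa_alt hG.unit hG.transpose_neg halt h2 h4 hk v, h3.le_subalgebraNormalizer⟩
    · by_cases hodd : Odd (Fintype.card F)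
      · iterate 6 right
        exact Or.inl ⟨K, hodd, h1, h3.isAdjointClosedFor hG.unit, by rwa [isSelfAdjointFor_iff hG.unit],
          h2.le_subalgebraNormalizer⟩
      · obtain ⟨ω, -, h4, h5⟩ := exists_omega (two_eq_zero_of_not_odd hodd) hG h1 h2 h3 h4
        obtain ⟨k1, k2, k3⟩ := omega_quad (hG.one_of_two (two_eq_zero_of_not_odd hodd)) hf h4 h5
        exact h8 hodd _ k1 k2 k3
    · exact absurd rfl h
  have htens : Odd (Fintype.card F) → ∀ (a b : ℕ) (e : ι ≃ Fin a × Fin b) (P : GL ι F) (G₁ : Matrix (Fin a) (Fin a) F)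
      (G₂ : Matrix (Fin b) (Fin b) F), TData (RingEquiv.refl F) (-1) G H e P (-1) 1 G₁ G₂ →
      SpIrr (gf (RingEquiv.refl F) G) H := by
    intro hodd a b e P G₁ G₂ h
    have h2 := odd_card_iff.1 hodd
    rcases h.hb.eq_or_lt with rfl | hb
    · exact hcomm (h.commCase_of_two h2 hH hf.le_sim)
    · iterate 7 right
      exact Or.inl ⟨a, b, e, P, _, _, hodd, hb, isSymplecticForm_gf h.h₁.unit h.h₁.transpose_neg
        (alt_of_skew h2 h.h₁.transpose_neg), isSymmetricForm_gf h.h₂.unit h.h₂.transpose_one,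
        h.isTensorFormStructure, h.le⟩
  rcases hG.structure (fun h => absurd rfl h) hH hf (by omega) with h | ⟨a, b, e, P, ε₁, ε₂, G₁, G₂, h⟩ |
    ⟨r, N, hN, hr⟩ | ⟨m, t, e, P, ε₀, G₀, L, h, hL, hA, hs⟩ | h | ⟨P, hP, hA⟩
  · exact hcomm h
  · by_cases hodd : Odd (Fintype.card F)
    · have h2 := odd_card_iff.1 hodd
      have := h.eps
      rcases h.h₁.eps with rfl | rfl <;> rcases h.h₂.eps with rfl | rfl
      · exact absurd (by linear_combination -this) h2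
      · exact htens hodd _ _ _ _ _ _ h.swap
      · exact htens hodd _ _ _ _ _ _ h
      · exact absurd (by linear_combination -this) h2
    · obtain ⟨-, -, Q, k1, k2, k3, -⟩ := h.exists_quad (two_eq_zero_of_not_odd hodd) hH hf
      exact h8 hodd _ k1 k2 k3
  · have hf' := hf.mono hN.le
    obtain rfl := hr.eq_two (by omega) hG.unit hf'.le_sim
    rcases hr.prime_or_formC5 (by omega) hG hf' hN.norm with hp | h
    · obtain ⟨k, hk⟩ := hr.exists_card_eq_pow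
      iterate 3 right
      exact Or.inl ⟨N, _, k, hr.isSymplecticTypeGroup hn (hr.exp_four (by omega) hG.unit hf'), hr.abs.acts, hf'.le_sim,
        hp, odd_card_iff.2 (hr.two_ne_zero (by omega)), rfl, hr.card_eq_two (by omega) hG.unit hf' hk,
        hr.card_center_two (by omega) hG.unit hf', hr.isOfMinusType (by omega) hG.unit hf' halt hk,
        hN.norm.le_normalizer, hr, hN.le, hk⟩
    · exact h5 h
  · by_cases hodd : Odd (Fintype.card F)
    · have h2 := odd_card_iff.1 hodd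
      have h1 := h.eps_pow hG
      rcases h.herm.eps with rfl | rfl
      · exact absurd (by rw [one_pow] at h1; linear_combination -h1) h2
      have ht : Odd t := by
        by_contra h'
        rw [(Nat.not_odd_iff_even.1 h').neg_one_pow] at h1
        exact h2 (by linear_combination -h1)
      iterate 8 right
      refine Or.inl ⟨m, t, e, P, _, hodd, ht, by have := h.ht; obtain ⟨k, rfl⟩ := ht; omega, ?_,
        isSymplecticForm_gf h.herm.unit h.herm.transpose_neg (alt_of_skew h2 h.herm.transpose_neg),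
        h.isTensorPowerFormStructure, h.le⟩
      rintro ⟨h3, rfl⟩
      exact not_absIrr_bot (by simp) (hsm h3 L hL ▸ hA)
    · have h2 := two_eq_zero_of_not_odd hodd
      obtain ⟨Q, k1, k2, k3, -⟩ := h.exists_quad h2 hG.unit
        (hA.irred.alt_of_symm h2 (by simpa using h.hm) (h.herm.symm_of_two h2) hs) hf
      exact h8 hodd _ k1 k2 k3
  · exact h5 h
  · have hf' := hf.mono hP.le
    by_cases hQ : ∃ Q : (ι → F) → F, IsNondegenerateQuadraticForm Q ∧ FixesQuadForm (matrixSet P) Q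
    swap
    · iterate 9 right
      exact ⟨P, hP, hQ, IsResidualCore.no_unitary hP hA hG.unit hf'⟩
    obtain ⟨Q, hQ, h⟩ := hQ
    have h1 := sesq_of_bilinear hQ.polar_bilinear
    obtain ⟨c, hc⟩ := hA.gram_unique hG.unit hf' (fixesGram_of_fixesForm h1 (fixesForm_polar h))
    have h3 := h1.eq_gf
    have hc0 : c ≠ 0 := by
      rintro rfl
      exact (h1.isUnit_gram hQ.nondegenerate).ne_zero (by rw [hc, zero_smul])
    rw [hc] at h3
    have h4 : QuadraticMap.polar (fun v => c⁻¹ * Q v) = gf (RingEquiv.refl F) G := by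
      ext u v
      have := congrFun (congrFun h3 u) v
      rw [gf_smul, QuadraticMap.polar] at this
      rw [QuadraticMap.polar, ← mul_sub, ← mul_sub, this, ← mul_assoc, inv_mul_cancel₀ hc0, one_mul]
    have h6 : ∀ (d : F) v, c⁻¹ * Q (d • v) = d ^ 2 * (c⁻¹ * Q v) := fun d v => by rw [hQ.smul]; ring
    refine h8 (fun hodd => ?_) _ ⟨h6, by rw [h4]; exact (sesq_gf _ G).bilinear, by rw [h4]; exact hG.nondeg⟩ h4
      (fixesQuad_of_normal hA.irred hP.normal (by omega) h6 (fun s hs v => by rw [h s hs])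
        (by rw [h4, ← fixesGram_iff]; exact hf))
    obtain ⟨i⟩ := ‹Nonempty ι›
    obtain ⟨x, hx⟩ := (hG.nondeg (Pi.single i 1) (by simp)).1
    have h7 := gf_skew hG.transpose_neg x (Pi.single i 1)
    rw [← h4, QuadraticMap.polar_comm _ (Pi.single i 1)] at h7
    rw [← h4] at hx
    exact hx (mul_left_cancel₀ (odd_card_iff.1 hodd) (by linear_combination h7))

lemma sympForm_eq (m : ℕ) : sympForm m F = gf (RingEquiv.refl F) (Matrix.J (Fin m) F) := rfl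

lemma herm_J (m : ℕ) : Herm (RingEquiv.refl F) (-1) (Matrix.J (Fin m) F) :=
  herm_of_skew ((Matrix.isUnit_iff_isUnit_det _).2 (Matrix.isUnit_det_J _ _)) (Matrix.J_transpose _ _)

lemma fixesGram_of_le_spGL {m : ℕ} {H : Subgroup (GL (Fin m ⊕ Fin m) F)} (h : H ≤ spGL m F) :
    FixesGram (RingEquiv.refl F) H (Matrix.J (Fin m) F) := by
  rw [fixesGram_iff]
  rintro _ ⟨g, hg, rfl⟩
  exact h hg

theorem sp_structure_aux [Fintype F]
    (hsm : Fintype.card F = 3 → ∀ L : Subgroup (GL (Fin 2) F), ⁅L, L⁆ = L → L = ⊥)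
    (m : ℕ) (hm : 2 ≤ m) (H : Subgroup (GL (Fin m ⊕ Fin m) F)) (hH : H ≤ spGL m F) :
    (∃ M, InSymplecticClass m F M ∧ H ≤ M) ∨ InSymplecticResidualClass H := by
  have hf := fixesGram_of_le_spGL hH
  have halt := (H7.isSymplecticForm_sympForm m F).alternating
  have hc : Fintype.card (Fin m ⊕ Fin m) = 2 * m := by simp [two_mul]
  by_cases hI : Irred H
  swap
  · left
    rcases (herm_J m).reducible (trVal_of_alt halt) hf.le_sim hI with ⟨W, h1, h2, h3⟩ | ⟨W, h1, h2, h3, h4⟩ |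
      ⟨k, D, h1, h2, -⟩
    · exact ⟨_, Or.inl (Or.inl ⟨W, h1, h2, rfl⟩), le_inf h3 hH⟩
    · exact ⟨_, Or.inl (Or.inr (Or.inl ⟨W, h1, h2, by omega, rfl⟩)), le_inf h4 hH⟩
    · exact ⟨_, Or.inl (Or.inr (Or.inr (Or.inl ⟨2, k, D, h1, rfl⟩))), le_inf h2 hH⟩
  rcases sp_irr_aux hsm (herm_J m) halt (by omega) hI hf with ⟨t, k, D, h1, h⟩ | ⟨k, D, h1, h2, h3, h⟩ |
    ⟨F₀, r, P, ζ, h1, h2, h3, h4, h⟩ | ⟨R, p, k, h1, h2, h3, h4, h5, h6, h7, h8, h9, h, -⟩ | ⟨Q, h1, h2, h3, h⟩ |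
    ⟨r, K, h1, h2, h3, h4, h⟩ | ⟨K, h1, h2, h3, h4, h⟩ | ⟨a, b, e, P, f₁, f₂, h1, h2, h3, h4, h5, h⟩ |
    ⟨k, t, e, P, f₁, h1, h2, h3, h4, h5, h6, h⟩ | h
  · exact Or.inl ⟨_, Or.inl (Or.inr (Or.inr (Or.inl ⟨t, k, D, h1, rfl⟩))), le_inf h hH⟩
  · obtain rfl : k = m := by have := IsMDecomposition.two_mul_eq h2; omega
    exact Or.inl ⟨_, Or.inl (Or.inr (Or.inr (Or.inr (Or.inl ⟨D, h1, h2, h3, rfl⟩)))), le_inf h hH⟩
  · exact Or.inl ⟨_, Or.inl (Or.inr (Or.inr (Or.inr (Or.inr (Or.inl ⟨F₀, r, P, ζ, h1, h2, h3, h4, rfl⟩))))),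
      le_inf h hH⟩
  · exact Or.inl ⟨_, Or.inl (Or.inr (Or.inr (Or.inr (Or.inr (Or.inr (Or.inl
      ⟨R, p, k, h1, h2, h3, h4, h5, h6, h7, h8, h9, rfl⟩)))))), le_inf h hH⟩
  · exact Or.inl ⟨_, Or.inl (Or.inr (Or.inr (Or.inr (Or.inr (Or.inr (Or.inr ⟨Q, h1, h2, h3, rfl⟩)))))), le_inf h hH⟩
  · exact Or.inl ⟨_, Or.inr (Or.inl ⟨r, K, h1, h2, h3, h4, rfl⟩), le_inf h hH⟩
  · exact Or.inl ⟨_, Or.inr (Or.inr (Or.inl ⟨K, h1, h2, h3, h4, rfl⟩)), le_inf h hH⟩
  · exact Or.inl ⟨_, Or.inr (Or.inr (Or.inr (Or.inl ⟨a, b, e, P, f₁, f₂, h1, h2, h3, h4, h5, rfl⟩))), le_inf h hH⟩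
  · exact Or.inl ⟨_, Or.inr (Or.inr (Or.inr (Or.inr ⟨k, t, e, P, f₁, h1, h2, h3, h4, h5, h6, rfl⟩))), le_inf h hH⟩
  · exact Or.inr h

end Cfsg.Agent.Asch
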